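import Cfsg.Agent.Leech.SimpleCo1
import Cfsg.Agent.Leech.SimpleCo3

/-!
The Conway, McLaughlin and Higman-Sims stabilisers of arbitrary configurations.
-/

set_option autoImplicit false

namespace Cfsg.Agent.Leech

open Cfsg

/-- Conjugation by `g` from the stabiliser of `v` to that of `g • v`. -/
theorem exists_equiv_of_smul {H K : Subgroup Co0} (g : Co0)
    (h : ∀ x : Co0, x ∈ H ↔ g * x * g⁻¹ ∈ K) : Nonempty (H ≃* K) :=
  ⟨{ toFun := fun x => ⟨g * x.1 * g⁻¹, (h x.1).mp x.2⟩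
     invFun := fun y => ⟨g⁻¹ * y.1 * g, (h _).mpr (by simp [mul_assoc])⟩
     left_inv := fun x => by apply Subtype.ext; simp [mul_assoc]
     right_inv := fun y => by apply Subtype.ext; simp [mul_assoc]
     map_mul' := fun x y => by apply Subtype.ext; simp [mul_assoc] }⟩

theorem conj_mem_stab (g x : Co0) (v : leechLattice) :
    x ∈ MulAction.stabilizer Co0 v ↔ g * x * g⁻¹ ∈ MulAction.stabilizer Co0 (g • v) := by
  simp only [MulAction.mem_stabilizer_iff, mul_smul, inv_smul_smul, smul_left_cancel_iff]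

theorem transfer {H K : Subgroup Co0} (e : H ≃* K) (hs : IsSimpleGroup K) {n : ℕ}
    (hc : Nat.card K = n) : IsSimpleGroup H ∧ Nat.card H = n :=
  ⟨e.isSimpleGroup_congr.mpr hs, (Nat.card_congr e.toEquiv).trans hc⟩

theorem isCo2_stabilizer {v : leechLattice} (hv : sqNorm v.1 = 32) :
    IsCo2 (MulAction.stabilizer Co0 v) := by
  obtain ⟨g, hg⟩ := exists_to_pU hv
  obtain ⟨e⟩ := exists_equiv_of_smul (H := MulAction.stabilizer Co0 v) (K := co2) g fun x => by
    rw [conj_mem_stab g x v, hg]; rfl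
  exact transfer e isSimpleGroup_co2 card_co2

theorem isCo3_stabilizer {v : leechLattice} (hv : sqNorm v.1 = 48) :
    IsCo3 (MulAction.stabilizer Co0 v) := by
  obtain ⟨g, hg⟩ := exists_to_pV hv
  obtain ⟨e⟩ := exists_equiv_of_smul (H := MulAction.stabilizer Co0 v) (K := co3) g fun x => by
    rw [conj_mem_stab g x v, hg]; rfl
  exact transfer e isSimpleGroup_co3 card_co3

theorem mcl_eq : mcl = MulAction.stabilizer Co0 pU ⊓ MulAction.stabilizer Co0 pW :=
  co2_inf_pW.symm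

theorem hs_eq : hs = MulAction.stabilizer Co0 pV ⊓ MulAction.stabilizer Co0 pY := by
  ext g
  rw [mem_hs, Subgroup.mem_inf, MulAction.mem_stabilizer_iff, MulAction.mem_stabilizer_iff]
  refine ⟨fun h => ⟨h.1, hs_smul_pY (mem_hs.mpr h)⟩, fun h => ⟨h.1, ?_⟩⟩
  have e : pX = -(pY + pV) := by rw [pY_eq, sub_add_cancel, neg_neg]
  rw [e, co0_neg, co0_add, h.1, h.2]

theorem isMcL_stabilizer {v w : leechLattice} (hv : sqNorm v.1 = 32) (hw : sqNorm w.1 = 32)
    (hd : dotInt v.1 w.1 = -8) :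
    IsMcL ↥(MulAction.stabilizer Co0 v ⊓ MulAction.stabilizer Co0 w) := by
  obtain ⟨g, hg, hgw⟩ := exists_to_mcl hv hw hd
  obtain ⟨e⟩ := exists_equiv_of_smul
    (H := MulAction.stabilizer Co0 v ⊓ MulAction.stabilizer Co0 w) (K := mcl) g fun x => by
    rw [mcl_eq, Subgroup.mem_inf, Subgroup.mem_inf, conj_mem_stab g x v, conj_mem_stab g x w, hg,
      hgw]
  exact transfer e isSimpleGroup_mcl card_mcl

theorem isHS_stabilizer {v w : leechLattice} (hv : sqNorm v.1 = 48) (hw : sqNorm w.1 = 48)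
    (hd : dotInt v.1 w.1 = -32) :
    IsHS ↥(MulAction.stabilizer Co0 v ⊓ MulAction.stabilizer Co0 w) := by
  obtain ⟨g, hg, hgw⟩ := exists_to_hs hv hw hd
  obtain ⟨e⟩ := exists_equiv_of_smul
    (H := MulAction.stabilizer Co0 v ⊓ MulAction.stabilizer Co0 w) (K := hs) g fun x => by
    rw [hs_eq, Subgroup.mem_inf, Subgroup.mem_inf, conj_mem_stab g x v, conj_mem_stab g x w, hg,
      hgw]
  exact transfer e isSimpleGroup_hs card_hs

end Cfsg.Agent.Leech
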