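import Cfsg.Agent.Leech.AutOps

/-!
Fast evaluation of lattice automorphisms on vectors packed as natural numbers.
-/

set_option autoImplicit false

namespace Cfsg.Agent.Leech

open Cfsg Cfsg.Agent.Golay

/-- The offset, as a literal. -/
def offN : ℕ := 19701303716234901881864035797688348777978986746236541640578769791261521492460831575720190381324008784892829571776512

theorem offI_eq : offI = (offN : ℤ) := by decide +kernel

/-- The code of a vector as a natural number. -/
def encN (x : GolayPt → ℤ) : ℕ := (encI x + offI).toNat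

theorem encI_off_nonneg {x : GolayPt → ℤ} (hx : sqNorm x ≤ 1000000) : 0 ≤ encI x + offI := by
  obtain ⟨-, hb⟩ := toNat_encI hx
  rw [offI, encI, encI, ← List.sum_map_add]
  refine List.sum_nonneg fun a ha => ?_
  obtain ⟨i, hi, rfl⟩ := List.mem_map.mp ha
  have h := hb _ (List.mem_map.mpr ⟨i, hi, rfl⟩)
  rw [← add_mul]
  exact mul_nonneg (by omega) (by positivity)

theorem encN_cast {x : GolayPt → ℤ} (hx : sqNorm x ≤ 1000000) :
    ((encN x : ℕ) : ℤ) = encI x + offI := Int.toNat_of_nonneg (encI_off_nonneg hx)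

theorem encN_inj {x y : GolayPt → ℤ} (hx : sqNorm x ≤ 1000000) (hy : sqNorm y ≤ 1000000)
    (h : encN x = encN y) : x = y := by
  refine encI_inj hx hy ?_
  have e : ((encN x : ℕ) : ℤ) = (encN y : ℕ) := congrArg _ h
  rw [encN_cast hx, encN_cast hy] at e
  omega

/-- The last step of an application. -/
def finN (s d r : ℕ) : ℕ :=
  Nat.div (Nat.sub (Nat.add s (Nat.mul (Nat.add 786432 8) offN))
    (Nat.add (Nat.mul offN d) (Nat.mul 32768 r))) 8

/-- The combination of packed rows by the digits, with the three totals. -/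
def appAux : List ℕ → ℕ → ℕ → ℕ → ℕ → ℕ
  | [], _, s, d, r => finN s d r
  | a :: R, W, s, d, r => appAux R (Nat.div W 65536) (Nat.add s (Nat.mul (Nat.mod W 65536) a))
      (Nat.add d (Nat.mod W 65536)) (Nat.add r a)

/-- The image of a packed vector. -/
def appN (R : List ℕ) (W : ℕ) : ℕ := appAux R W 0 0 0

/-- Packed rows read as integers. -/
def toI (R : List ℕ) : List ℤ := R.map fun a : ℕ => (a : ℤ) - offN

theorem appAux_spec : ∀ (R : List ℕ) (W s d r : ℕ), ∃ S D T : ℕ,
    appAux R W s d r = finN (s + S) (d + D) (r + T) ∧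
    accI (toI R) W = (S : ℤ) - offN * D - 32768 * T + 32768 * offN * R.length
  | [], _, s, d, r => ⟨0, 0, 0, rfl, by simp [toI, accI]⟩
  | a :: R, W, s, d, r => by
    obtain ⟨S, D, T, h1, h2⟩ := appAux_spec R (W / 65536) (s + W % 65536 * a) (d + W % 65536) (r + a)
    refine ⟨W % 65536 * a + S, W % 65536 + D, a + T, ?_, ?_⟩
    · show appAux R (W / 65536) (s + W % 65536 * a) (d + W % 65536) (r + a) = _
      rw [h1]; simp only [Nat.add_assoc]
    · simp only [toI, List.map_cons, accI, List.length_cons] at h2 ⊢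
      rw [h2]
      push_cast
      ring

/-- The packed rows of an element. -/
def HasN (g : Co0) (R : List ℕ) : Prop :=
  R.length = 24 ∧ ∀ i < 24, R.getD i 0 = encN (g • crossL (ptOf i)).1

theorem HasN.hasMat {g : Co0} {R : List ℕ} (h : HasN g R) : HasMat g (toI R) := by
  refine ⟨by simpa [toI] using h.1, fun i hi => ?_⟩
  have hl : i < R.length := by rw [h.1]; exact hi
  have := h.2 i hi
  rw [List.getD_eq_getElem _ _ hl] at this
  rw [List.getD_eq_getElem _ _ (by simpa [toI] using hl)]
  simp only [toI, List.getElem_map, this]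
  rw [encN_cast (sqNorm_cross_smul _ _), offI_eq, add_sub_cancel_right]

theorem HasN.apply {g : Co0} {R : List ℕ} (h : HasN g R) (x : leechLattice)
    (hx : sqNorm x.1 ≤ 1000000) : appN R (encN x.1) = encN (g • x).1 := by
  have hgx : sqNorm (g • x).1 ≤ 1000000 := by rw [show sqNorm (g • x).1 = sqNorm x.1 from g.2.2 x]; exact hx
  have key := h.hasMat.apply x hx
  obtain ⟨S, D, T, h1, h2⟩ := appAux_spec R (encN x.1) 0 0 0
  rw [h.1] at h2
  rw [appI, show (encI x.1 + offI).toNat = encN x.1 from rfl, h2] at key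
  rw [appN, h1]
  have hdiv : ∀ a b : ℕ, Nat.div a b = a / b := fun _ _ => rfl
  simp only [Nat.zero_add, finN, hdiv, Nat.sub_eq, Nat.add_eq, Nat.mul_eq]
  have hc := encN_cast hgx
  have hn := encI_off_nonneg hgx
  rw [offI_eq] at hc hn
  omega

/-- The product of two matrices. -/
def mulN (A B : List ℕ) : List ℕ := B.map (appN A)

theorem HasN.mul {g h : Co0} {A B : List ℕ} (hA : HasN g A) (hB : HasN h B) :
    HasN (g * h) (mulN A B) := by
  refine ⟨by simpa [mulN] using hB.1, fun i hi => ?_⟩
  have hl : i < B.length := by rw [hB.1]; exact hi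
  have := hB.2 i hi
  rw [List.getD_eq_getElem _ _ hl] at this
  rw [mulN, List.getD_eq_getElem _ _ (by simpa using hl), List.getElem_map, this, mul_smul,
    hA.apply _ (sqNorm_cross_smul _ _)]

/-- The packed rows of a list of operations, computed. -/
def rowsNOf (l : List LOp) : List ℕ :=
  (List.range 24).map fun i => encN (runV l (Leech.cross (ptOf i)))

theorem hasN_ops {l : List LOp} (hl : l.all opOK = true) {R : List ℕ} (h : rowsNOf l = R) :
    HasN (opsEl l) R := by
  subst h
  refine ⟨by simp [rowsNOf], fun i hi => ?_⟩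
  rw [List.getD_eq_getElem _ _ (by simpa [rowsNOf] using hi), opsEl_smul hl, ← runV_eq]
  simp [rowsNOf, crossL]

theorem hasN_one : HasN 1 (rowsNOf []) := hasN_ops (l := []) rfl rfl

/-- An entry of a packed table, 128 entries of the given width to a number. -/
def getP (L : List ℕ) (w i : ℕ) : ℕ :=
  Nat.mod (Nat.shiftRight (L.getD (Nat.div i 128) 0) (Nat.mul w (Nat.mod i 128))) (Nat.pow 2 w)

/-- The mask of the first `n` values. -/
def maskOf (f : ℕ → ℕ) : ℕ → ℕ
  | 0 => 0
  | n + 1 => Nat.lor (maskOf f n) (Nat.pow 2 (f n))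

theorem testBit_maskOf (f : ℕ → ℕ) : ∀ (n m : ℕ),
    (maskOf f n).testBit m = true ↔ ∃ j < n, f j = m
  | 0, m => by simp [maskOf]
  | n + 1, m => by
    rw [maskOf, show Nat.lor (maskOf f n) (Nat.pow 2 (f n)) = maskOf f n ||| 2 ^ f n from rfl,
      Nat.testBit_or, Bool.or_eq_true, testBit_maskOf f n m, Nat.testBit_two_pow, decide_eq_true_eq]
    constructor
    · rintro (⟨j, hj, e⟩ | e)
      exacts [⟨j, by omega, e⟩, ⟨n, by omega, e⟩]
    · rintro ⟨j, hj, e⟩
      rcases Nat.lt_succ_iff_lt_or_eq.mp hj with hj | rfl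
      exacts [Or.inl ⟨j, hj, e⟩, Or.inr e]

end Cfsg.Agent.Leech
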