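import Cfsg.Agent.Leech.MatProg
import Cfsg.Agent.Leech.GroupSep

/-!
Certificates on codes modulo 2 for larger Sylow subgroups.
-/

set_option autoImplicit false
set_option maxHeartbeats 400000

namespace Cfsg.Agent.Leech

open Cfsg Cfsg.Agent.Golay Cfsg.Agent.SchurCert

attribute [local irreducible] matEnc matOne matMul colsOf keyOf

variable (K : Subgroup (Equiv.Perm leechLattice))

/-- A certified prime does not divide the Schur multiplier; the generators are separated by
halves. -/
theorem not_dvd_of_data_sep (hK : K ≤ Co0) (hneg : negCo0.1 ∉ K) (p : ℕ) [Fact p.Prime]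
    (D : Cert) (hDp : D.P.p = p) (P : MatProg) {conf : List leechLattice}
    (hconf : ∀ g : Co0, g ∈ fixConf conf → g.1 ∈ K)
    (hP : P.okB (conf.map fun v => v.1) (D.gens ++ D.gs) = true)
    (hwf : D.P.wf = true) (k : ℕ) (hk : k ≤ D.P.n)
    (hrel : relB D matMul matOne = true) (hsep : sepAll D matMul matOne k = true)
    (hrows : D.rows.all (D.rowOK matMul matOne) = true) (hlin : D.linOK = true)
    {N m : ℕ} (hcard : Nat.card K = N) (hN : N = p ^ D.P.n * m) (hm : ¬ p ∣ m) :
    ¬ p ∣ Nat.card (CentralExt.schurMult K) := by
  have : Finite K := by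
    have := finite_Co0
    exact Finite.of_injective _ (Subgroup.inclusion_injective hK)
  have hall := exists_of_okB hP
  have hgrp : D.groupOK matMul matOne = true :=
    groupOK_of_sep (sporCode K hK hneg) (gen := fun i => sporElem K hK (D.gens.getD i matOne))
      (hDp.symm ▸ (Fact.out : p.Prime)) hwf
      (fun i _ => matEnc_sporElem K hK hconf (fun c hc => hall c (List.mem_append_left _ hc)) i)
      hk hrel hsep
  refine not_dvd_of_data K hK hneg p D hDp P hconf hP ?_ hcard hN hm
  simp only [Cert.check, hwf, hgrp, hrows, hlin, Bool.and_self]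

end Cfsg.Agent.Leech
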