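import Cfsg.Agent.Leech.SimpleMcL
import Cfsg.Agent.Leech.Suborbit
import Cfsg.Agent.Leech.SubTreesData

/-!
The suborbits of the McLaughlin group on 2025 points.
-/

set_option autoImplicit false
set_option Elab.async false

namespace Cfsg.Agent.Leech

open Cfsg Cfsg.Agent.Golay

/-- An orbit of a subgroup has the size of the set it fills after moving by `g`. -/
theorem ncard_orbit_eq {K : Subgroup Co0} {g : Co0} {y : leechLattice} {C : Set leechLattice}
    (hf : ∀ k ∈ K, g • k • y ∈ C) (hb : ∀ z ∈ C, ∃ k ∈ K, g • k • y = z) :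
    (MulAction.orbit K y).ncard = C.ncard := by
  refine Set.ncard_congr (fun z _ => g • z) ?_ (fun a b _ _ h => MulAction.injective g h) ?_
  · rintro z ⟨k, rfl⟩; exact hf k.1 k.2
  · intro z hz
    obtain ⟨k, hk, e⟩ := hb z hz
    exact ⟨k • y, ⟨⟨k, hk⟩, rfl⟩, e⟩

theorem roots2025 : inLeechB (ofList Trees.mclB330Root) = true ∧
    inLeechB (ofList Trees.mclB462Root) = true ∧ inLeechB (ofList Trees.mclB1232Root) = true := by
  decide +kernel

/-- Roots of the three suborbits. -/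
def sub2025 : Fin 3 → leechLattice
  | 0 => ⟨_, mem_of_inLeechB roots2025.1⟩
  | 1 => ⟨_, mem_of_inLeechB roots2025.2.1⟩
  | 2 => ⟨_, mem_of_inLeechB roots2025.2.2⟩

/-- Their inner products with the base point. -/
def dot2025 : Fin 3 → ℤ
  | 0 => 0
  | 1 => 16
  | 2 => 8

/-- Their lengths. -/
def len2025 : Fin 3 → ℕ
  | 0 => 330
  | 1 => 462
  | 2 => 1232

/-- Their certificates. -/
def cert2025 : Fin 3 → OrbitCert
  | 0 => Trees.mclB330
  | 1 => Trees.mclB462
  | 2 => Trees.mclB1232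

theorem sub2025_spec : ∀ i, sqNorm (sub2025 i).1 = 32 ∧ dotInt pU.1 (sub2025 i).1 = 0 ∧
    dotInt pW.1 (sub2025 i).1 = 16 ∧ dotInt pZ.1 (sub2025 i).1 = dot2025 i := by
  decide +kernel

theorem gens2025 : ∀ i, (cert2025 i).gensB (([pV, pU] ++ [pZ]).map fun v => v.1) = true := by
  decide +kernel

theorem size2025_0 : Trees.mclB330.sizeB (keyOf (sub2025 0).1) 330 = true := by decide +kernel

theorem size2025_1 : Trees.mclB462.sizeB (keyOf (sub2025 1).1) 462 = true := by decide +kernel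

theorem size2025_2 : Trees.mclB1232.sizeB (keyOf (sub2025 2).1) 1232 = true := by decide +kernel

theorem size2025 : ∀ i, (cert2025 i).sizeB (keyOf (sub2025 i).1) (len2025 i) = true
  | 0 => size2025_0
  | 1 => size2025_1
  | 2 => size2025_2

theorem suborbits2025 : ∀ i, (dotClass set2025 pZ (dot2025 i)).ncard = len2025 i ∧
    ∀ y ∈ dotClass set2025 pZ (dot2025 i),
      ∃ g ∈ fixConf ([pV, pU] ++ [pZ]), g • sub2025 i = y :=
  (suborbits_of_certs (ι := Fin 3) pZ_mem sqNorm_configs.2.2.2.2.2.1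
    (fun g hg y hy => set2025_inv (mem_mcl.mpr ⟨mem_fixConf.mp hg pV (by simp),
      mem_fixConf.mp hg pU (by simp)⟩) hy)
    cert2025 sub2025 dot2025 len2025 (by decide) (by decide)
    (fun i => ⟨⟨(sub2025_spec i).1, (sub2025_spec i).2.1, (sub2025_spec i).2.2.1⟩,
      (sub2025_spec i).2.2.2⟩)
    (by rw [count2025]; rfl) gens2025 size2025).1

/-- The points for a pair of minimal vectors. -/
def set2025' (v w : leechLattice) : Set leechLattice :=
  {x | sqNorm x.1 = 32 ∧ dotInt v.1 x.1 = 0 ∧ dotInt w.1 x.1 = 16}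

theorem set2025'_image {g : Co0} {v w x : leechLattice} (hv : g • v = pU) (hw : g • w = pW) :
    g • x ∈ set2025 ↔ x ∈ set2025' v w := by
  simp only [set2025, set2025', Set.mem_ofPred_eq, ← hv, ← hw, sqNorm_co0, co0_dotInt]

theorem exists_to_2025 {v w x : leechLattice} (hv : sqNorm v.1 = 32) (hw : sqNorm w.1 = 32)
    (hd : dotInt v.1 w.1 = -8) (hx : x ∈ set2025' v w) :
    ∃ g : Co0, g • v = pU ∧ g • w = pW ∧ g • x = pZ := by
  obtain ⟨g, hg, hgw⟩ := exists_to_mcl hv hw hd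
  obtain ⟨h, hh, hhx⟩ := transitive2025 ((set2025'_image hg hgw).mpr hx)
  refine ⟨h⁻¹ * g, ?_, ?_, ?_⟩
  · rw [mul_smul, hg, inv_smul_eq_iff, (mem_mcl.mp hh).2]
  · rw [mul_smul, hgw, inv_smul_eq_iff, mcl_smul_pW hh]
  · rw [mul_smul, inv_smul_eq_iff, hhx]

theorem ncard_set2025' {v w : leechLattice} (hv : sqNorm v.1 = 32) (hw : sqNorm w.1 = 32)
    (hd : dotInt v.1 w.1 = -8) : (set2025' v w).ncard = 2025 := by
  obtain ⟨g, hg, hgw⟩ := exists_to_mcl hv hw hd
  refine Eq.trans ?_ ((ncard_smul_setOf g fun x => x ∈ set2025).trans count2025)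
  congr 1
  ext x
  exact (set2025'_image hg hgw).symm

theorem exists_suborbit2025 {v w x : leechLattice} (hv : sqNorm v.1 = 32) (hw : sqNorm w.1 = 32)
    (hd : dotInt v.1 w.1 = -8) (hx : x ∈ set2025' v w) (i : Fin 3) :
    ∃ y ∈ set2025' v w, (MulAction.orbit ↥(MulAction.stabilizer Co0 v ⊓
      MulAction.stabilizer Co0 w ⊓ MulAction.stabilizer Co0 x) y).ncard = len2025 i := by
  obtain ⟨g, hg, hgw, hgx⟩ := exists_to_2025 hv hw hd hx
  refine ⟨g⁻¹ • sub2025 i, (set2025'_image hg hgw).mp ?_, ?_⟩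
  · rw [smul_inv_smul]
    exact ⟨(sub2025_spec i).1, (sub2025_spec i).2.1, (sub2025_spec i).2.2.1⟩
  rw [← (suborbits2025 i).1]
  refine ncard_orbit_eq (g := g) (fun k hk => ?_) (fun z hz => ?_)
  · simp only [Subgroup.mem_inf, MulAction.mem_stabilizer_iff] at hk
    obtain ⟨⟨h1, h2⟩, h3⟩ := hk
    have hm : g • k • g⁻¹ • sub2025 i ∈ set2025 := by
      rw [set2025'_image hg hgw]
      have hr : g • g⁻¹ • sub2025 i ∈ set2025 := by
        rw [smul_inv_smul]
        exact ⟨(sub2025_spec i).1, (sub2025_spec i).2.1, (sub2025_spec i).2.2.1⟩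
      obtain ⟨r1, r2, r3⟩ := (set2025'_image hg hgw).mp hr
      refine ⟨(sqNorm_co0 k _).trans r1, ?_, ?_⟩
      · have h := co0_dotInt k v (g⁻¹ • sub2025 i)
        rw [h1] at h
        rw [h]; exact r2
      · have h := co0_dotInt k w (g⁻¹ • sub2025 i)
        rw [h2] at h
        rw [h]; exact r3
    refine ⟨hm, ?_⟩
    have h := co0_dotInt k x (g⁻¹ • sub2025 i)
    rw [h3] at h
    rw [← hgx, co0_dotInt, h, ← co0_dotInt g, smul_inv_smul, hgx]
    exact (sub2025_spec i).2.2.2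
  · obtain ⟨a, ha, e⟩ := (suborbits2025 i).2 z hz
    have haV := mem_fixConf.mp ha pV (by simp)
    have haU := mem_fixConf.mp ha pU (by simp)
    have haZ := mem_fixConf.mp ha pZ (by simp)
    have haW := mcl_smul_pW (mem_mcl.mpr ⟨haV, haU⟩)
    refine ⟨g⁻¹ * a * g, ?_, ?_⟩
    · simp only [Subgroup.mem_inf, MulAction.mem_stabilizer_iff, mul_smul, inv_smul_eq_iff]
      exact ⟨⟨by rw [hg]; exact haU, by rw [hgw]; exact haW⟩, by rw [hgx]; exact haZ⟩
    · rw [mul_smul, mul_smul, smul_inv_smul, smul_inv_smul, e]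

end Cfsg.Agent.Leech
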