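import Cfsg.Agent.Leech.ModTwo
import Cfsg.Agent.Golay.Code

/-!
The only nonzero invariant quadratic form on the lattice modulo twice itself.
-/

set_option autoImplicit false

namespace Cfsg.Agent.Leech

open Cfsg Cfsg.Agent.Golay

/-- A vector from a few coordinates. -/
def coordVec (l : List (ℕ × ℤ)) : GolayPt → ℤ := fun p => (l.lookup (ptIdx p)).getD 0

theorem coordVec_mem {l : List (ℕ × ℤ)} (k : ℕ) (hp : ∀ p, coordVec l p % 2 = 0)
    (hs : (∑ p, coordVec l p) % 8 = 0) (hw : word (coordVec l) 0 = Golay.ofBits (Golay.enc k)) :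
    coordVec l ∈ leechLattice :=
  (mem_leechLattice_iff _).mpr ⟨0, hp, by simpa [Int.ModEq] using hs, hw ▸ Golay.ofBits_enc_mem k⟩

/-- A vector of squared length 32. -/
def formV : List (ℕ × ℤ) := [(0, 4), (4, 4)]

/-- A vector of squared length 32, with product -16 with `formV`. -/
def formW : List (ℕ × ℤ) := [(4, -4), (1, 4)]

/-- A vector orthogonal to both. -/
def formU : List (ℕ × ℤ) := [(2, 4), (3, 4)]

/-- A vector with product -8 with both. -/
def formU' : List (ℕ × ℤ) :=
  [(0, -2), (1, -2), (2, -2), (3, -2), (5, -2), (14, -2), (17, -2), (23, -2)]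

theorem formV_mem : coordVec formV ∈ leechLattice :=
  coordVec_mem 0 (by decide +kernel) (by decide +kernel) (by decide +kernel)

theorem formW_mem : coordVec formW ∈ leechLattice :=
  coordVec_mem 0 (by decide +kernel) (by decide +kernel) (by decide +kernel)

theorem formU_mem : coordVec formU ∈ leechLattice :=
  coordVec_mem 0 (by decide +kernel) (by decide +kernel) (by decide +kernel)

theorem formU'_mem : coordVec formU' ∈ leechLattice :=
  coordVec_mem (8536111 % 4096) (by decide +kernel) (by decide +kernel) (by decide +kernel)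

theorem form_norms :
    sqNorm (coordVec formV) = 32 ∧ sqNorm (coordVec formW) = 32 ∧ sqNorm (coordVec formU) = 32 ∧
    sqNorm (coordVec formU') = 32 ∧ sqNorm (coordVec formV + coordVec formW) = 32 ∧
    sqNorm (coordVec formU + coordVec formV) = 64 ∧ sqNorm (coordVec formU + coordVec formW) = 64 ∧
    sqNorm (coordVec formU + coordVec formV + coordVec formW) = 64 ∧
    sqNorm (coordVec formU' + coordVec formV) = 48 ∧
    sqNorm (coordVec formU' + coordVec formW) = 48 ∧
    sqNorm (coordVec formU' + coordVec formV + coordVec formW) = 32 := by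
  decide +kernel

theorem invariant_form_eq (Q : ↥leechLattice → ZMod 2)
    (hcoset : ∀ v w : ↥leechLattice, Q (v + (w + w)) = Q v)
    (hquad : ∀ u v w : ↥leechLattice,
      Q (u + v + w) + Q u + Q v + Q w = Q (u + v) + Q (u + w) + Q (v + w))
    (hinv : ∀ (g : ↥Co0) (v : ↥leechLattice), Q (g • v) = Q v)
    (hne : ∃ v : ↥leechLattice, Q v ≠ 0) (v : ↥leechLattice) :
    Q v = ((sqNorm (v : GolayPt → ℤ) / 16 : ℤ) : ZMod 2) := by
  let a : ↥leechLattice := ⟨_, formV_mem⟩
  let b : ↥leechLattice := ⟨_, formW_mem⟩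
  let c : ↥leechLattice := ⟨_, formU_mem⟩
  let c' : ↥leechLattice := ⟨_, formU'_mem⟩
  obtain ⟨na, nb, nc, nc', nab, nca, ncb, ncab, nca', ncb', ncab'⟩ := form_norms
  have hshell : ∀ x y : ↥leechLattice, sqNorm x.1 = sqNorm y.1 →
      sqNorm x.1 ∈ ({32, 48, 64} : Set ℤ) → Q x = Q y := by
    intro x y he hx
    have key : ∀ t, Conj x.1 t → Conj y.1 t → Q x = Q y := fun t h1 h2 => by
      obtain ⟨g, rfl⟩ := exists_smul_eq_of_conj h1 h2
      exact (hinv g x).symm
    simp only [Set.mem_insert_iff, Set.mem_singleton_iff] at hx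
    rcases hx with e | e | e
    · exact key _ (conj32 x.2 e) (conj32 y.2 (he ▸ e))
    · exact key _ (conj48 x.2 e) (conj48 y.2 (he ▸ e))
    · exact key _ (conj64 x.2 e) (conj64 y.2 (he ▸ e))
  have hmem : ∀ z : ℤ, z = 32 ∨ z = 48 ∨ z = 64 → z ∈ ({32, 48, 64} : Set ℤ) :=
    fun z h => by simpa using h
  have hz : Q 0 = 0 := by
    have := hquad 0 0 0
    simp only [add_zero] at this
    generalize Q 0 = q at this ⊢
    revert this; revert q; decide
  have h64 : Q (c + a) = 0 := by
    have h := hquad c a b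
    rw [hshell b a (nb.trans na.symm) (by simp [b, nb]), hshell c a (nc.trans na.symm) (by simp [c, nc]),
      hshell (c + a + b) (c + a) (ncab.trans nca.symm) (by
        exact hmem _ (Or.inr (Or.inr ncab))),
      hshell (c + b) (c + a) (ncb.trans nca.symm) (by
        exact hmem _ (Or.inr (Or.inr ncb))),
      hshell (a + b) a (nab.trans na.symm) (by
        exact hmem _ (Or.inl nab))] at h
    generalize Q (c + a) = q, Q a = p at h ⊢
    revert h; revert p q; decide
  have h32 : Q a = 0 := by
    have h := hquad c' a b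
    rw [hshell b a (nb.trans na.symm) (by simp [b, nb]),
      hshell c' a (nc'.trans na.symm) (by simp [c', nc']),
      hshell (c' + a + b) a (ncab'.trans na.symm) (by
        exact hmem _ (Or.inl ncab')),
      hshell (c' + b) (c' + a) (ncb'.trans nca'.symm) (by
        exact hmem _ (Or.inr (Or.inl ncb'))),
      hshell (a + b) a (nab.trans na.symm) (by
        exact hmem _ (Or.inl nab))] at h
    generalize Q (c' + a) = q, Q a = p at h ⊢
    revert h; revert p q; decide
  -- classes modulo twice the lattice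
  have hclass : ∀ x : ↥leechLattice, ∃ y : ↥leechLattice,
      sqNorm y.1 ∈ ({0, 32, 48, 64} : Set ℤ) ∧ Q x = Q y ∧
        ((sqNorm x.1 / 16 : ℤ) : ZMod 2) = ((sqNorm y.1 / 16 : ℤ) : ZMod 2) := by
    intro x
    obtain ⟨y, hy, z, hzl, e⟩ := exists_short_rep x
    have hxy : x = y + (⟨z, hzl⟩ + ⟨z, hzl⟩) := Subtype.ext (by
      show x.1 = y.1 + (z + z)
      rw [← two_nsmul, ← e]; abel)
    refine ⟨y, hy, by rw [hxy, hcoset], ?_⟩
    obtain ⟨i, hi⟩ := sqNorm_mod y.2
    obtain ⟨j, hj⟩ := sqNorm_mod hzl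
    obtain ⟨l, hl⟩ := sqNorm_mod (add_mem y.2 hzl)
    have hsum : sqNorm x.1 = 2 * sqNorm (y.1 + z) + 2 * sqNorm z - sqNorm y.1 := by
      rw [hxy]
      show sqNorm (y.1 + (z + z)) = _
      simp only [sqNorm, Pi.add_apply, Finset.mul_sum, ← Finset.sum_add_distrib,
        ← Finset.sum_sub_distrib]
      exact Finset.sum_congr rfl fun p _ => by ring
    rw [hsum, hi, hj, hl, show 2 * (16 * l) + 2 * (16 * j) - 16 * i = 16 * (2 * l + 2 * j - i) by ring,
      Int.mul_ediv_cancel_left _ (by norm_num), Int.mul_ediv_cancel_left _ (by norm_num)]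
    push_cast
    rw [show (2 : ZMod 2) = 0 from rfl]
    simp
  have hval : ∀ y : ↥leechLattice, sqNorm y.1 = 0 → Q y = 0 := fun y hy => by
    have : y = 0 := Subtype.ext (funext fun p => by
      have := (Finset.sum_eq_zero_iff_of_nonneg (fun i _ => sq_nonneg (y.1 i))).mp hy p
        (Finset.mem_univ p)
      exact pow_eq_zero_iff (by norm_num) |>.mp this)
    rw [this, hz]
  have h32' : ∀ y : ↥leechLattice, sqNorm y.1 = 32 → Q y = 0 := fun y hy =>
    (hshell y a (hy.trans na.symm) (by simp [hy])).trans h32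
  have h64' : ∀ y : ↥leechLattice, sqNorm y.1 = 64 → Q y = 0 := fun y hy =>
    (hshell y (c + a) (hy.trans nca.symm) (by simp [hy])).trans h64
  have h48 : ∀ y : ↥leechLattice, sqNorm y.1 = 48 → Q y = 1 := by
    intro y hy
    obtain ⟨x, hx⟩ := hne
    obtain ⟨w, hw, hQ, -⟩ := hclass x
    rw [hQ] at hx
    simp only [Set.mem_insert_iff, Set.mem_singleton_iff] at hw
    rcases hw with e | e | e | e
    · exact absurd (hval w e) hx
    · exact absurd (h32' w e) hx
    · rw [hshell y w (hy.trans e.symm) (by simp [hy])]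
      generalize Q w = q at hx ⊢
      revert hx; revert q; decide
    · exact absurd (h64' w e) hx
  obtain ⟨w, hw, hQ, hn⟩ := hclass v
  rw [hQ, hn]
  simp only [Set.mem_insert_iff, Set.mem_singleton_iff] at hw
  rcases hw with e | e | e | e <;> rw [e]
  · rw [hval w e]; rfl
  · rw [h32' w e]; rfl
  · rw [h48 w e]; rfl
  · rw [h64' w e]; rfl

end Cfsg.Agent.Leech
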