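import Cfsg.Agent.Leech.SchurCo2Data
import Cfsg.Agent.Leech.MatSep
import Cfsg.Agent.Leech.LinFast
import Cfsg.Agent.Leech.Stabilizers

/-!
The Schur multiplier of the second Conway group is trivial.
-/

set_option autoImplicit false
set_option maxHeartbeats 400000
set_option Elab.async false

namespace Cfsg.Agent.Leech

open Cfsg Cfsg.Agent.Golay Cfsg.Agent.SchurCert

theorem smul_leechU_iff (g : Co0) : g • pU = pU ↔ g • Spor.leechU = Spor.leechU := by
  rw [pU_eq]

theorem co2_map : Spor.Co2 = co2.map Co0.subtype := by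
  ext σ
  rw [Subgroup.mem_map]
  constructor
  · rintro ⟨h0, h1⟩
    exact ⟨⟨σ, h0⟩, mem_co2.mpr ((smul_leechU_iff ⟨σ, h0⟩).mpr h1), rfl⟩
  · rintro ⟨g, hg, rfl⟩
    exact ⟨g.2, (smul_leechU_iff g).mp (mem_co2.mp hg)⟩

theorem card_sporCo2 : Nat.card Spor.Co2 = 42305421312000 := by
  rw [co2_map, Subgroup.card_map_of_injective (Subgroup.subtype_injective Co0), card_co2]

theorem negCo0_not_mem_co2 : negCo0.1 ∉ Spor.Co2 := fun h => by
  have h1 : negCo0 • Spor.leechU = Spor.leechU := h.2
  rw [negCo0_smul] at h1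
  have h2 : -Spor.vecU = Spor.vecU := congrArg Subtype.val h1
  have h3 := congrFun h2 none
  simp [Spor.vecU] at h3

theorem fixConf_le_co2 : ∀ g : Co0, g ∈ fixConf [pU] → g.1 ∈ Spor.Co2 := fun g hg =>
  ⟨g.2, (smul_leechU_iff g).mp (mem_fixConf.mp hg pU (List.mem_singleton.mpr rfl))⟩

theorem co2Prog_ok : Schur.co2Prog.okB ([pU].map fun v => v.1)
    ((Schur.co2Cert2.gens ++ Schur.co2Cert2.gs) ++ (Schur.co2Cert3.gens ++ Schur.co2Cert3.gs) ++
      (Schur.co2Cert5.gens ++ Schur.co2Cert5.gs)) = true := by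
  decide +kernel

theorem co2Cert2_wf : Schur.co2Cert2.P.wf = true := by decide +kernel

theorem co2Cert2_rel : relB Schur.co2Cert2 matMul matOne = true := by decide +kernel

theorem co2Cert2_sep : sepAll Schur.co2Cert2 matMul matOne 9 = true := by decide +kernel

theorem co2Cert2_rows : Schur.co2Cert2.rows.all (Schur.co2Cert2.rowOK matMul matOne) = true := by
  decide +kernel

theorem co2Cert2_lin : Schur.co2Cert2.linOK = true := linOK_of_fast (by decide +kernel)

theorem co2Cert3_ok : Schur.co2Cert3.check matMul matOne = true := by decide +kernel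

theorem co2Cert5_ok : Schur.co2Cert5.check matMul matOne = true := by decide +kernel

theorem co2_multiplier : HasCyclicSchurMultiplier Spor.Co2 1 := by
  have : Finite Spor.Co2 := Nat.finite_of_card_ne_zero (by rw [card_sporCo2]; norm_num)
  refine CentralExt.hasCyclicSchurMultiplier_one_of_not_dvd fun p hp => ?_
  haveI : Fact p.Prime := ⟨hp⟩
  rcases eq_or_ne p 2 with rfl | h2
  · exact not_dvd_of_data_sep Spor.Co2 inf_le_left negCo0_not_mem_co2 2 Schur.co2Cert2 rfl
      Schur.co2Prog fixConf_le_co2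
      (MatProg.okB_of_subset co2Prog_ok fun c hc => by
        simp only [List.mem_append] at hc ⊢; exact Or.inl (Or.inl hc))
      co2Cert2_wf 9 (by decide +kernel) co2Cert2_rel co2Cert2_sep co2Cert2_rows co2Cert2_lin (m := 161382375) card_sporCo2 (by decide +kernel) (by norm_num)
  rcases eq_or_ne p 3 with rfl | h3
  · exact not_dvd_of_data Spor.Co2 inf_le_left negCo0_not_mem_co2 3 Schur.co2Cert3 rfl
      Schur.co2Prog fixConf_le_co2
      (MatProg.okB_of_subset co2Prog_ok fun c hc => by
        simp only [List.mem_append] at hc ⊢; exact Or.inl (Or.inr hc))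
      co2Cert3_ok (m := 58032128000) card_sporCo2 (by decide +kernel) (by norm_num)
  rcases eq_or_ne p 5 with rfl | h5
  · exact not_dvd_of_data Spor.Co2 inf_le_left negCo0_not_mem_co2 5 Schur.co2Cert5 rfl
      Schur.co2Prog fixConf_le_co2
      (MatProg.okB_of_subset co2Prog_ok fun c hc => by
        simp only [List.mem_append] at hc ⊢; exact Or.inr hc)
      co2Cert5_ok (m := 338443370496) card_sporCo2 (by decide +kernel) (by norm_num)
  refine not_dvd_schurMult_of_sq_not_dvd p ?_
  rw [card_sporCo2]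
  refine sq_not_dvd_of_cofactor (A := 2 ^ 18 * 3 ^ 6 * 5 ^ 3) (B := 1771) (C := 43) hp
    (by decide +kernel) (fun hd => ?_) (by norm_num) (by norm_num) (by decide +kernel)
  rcases hp.dvd_mul.1 hd with h | h
  · rcases hp.dvd_mul.1 h with h | h
    · exact h2 ((Nat.prime_dvd_prime_iff_eq hp Nat.prime_two).1 (hp.dvd_of_dvd_pow h))
    · exact h3 ((Nat.prime_dvd_prime_iff_eq hp Nat.prime_three).1 (hp.dvd_of_dvd_pow h))
  · exact h5 ((Nat.prime_dvd_prime_iff_eq hp (by norm_num)).1 (hp.dvd_of_dvd_pow h))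

end Cfsg.Agent.Leech
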