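import Cfsg.Agent.Leech.SchurCo3Data
import Cfsg.Agent.Leech.Stabilizers

/-!
The Schur multiplier of the third Conway group is trivial.
-/

set_option autoImplicit false
set_option maxHeartbeats 400000
set_option Elab.async false

namespace Cfsg.Agent.Leech

open Cfsg Cfsg.Agent.Golay Cfsg.Agent.SchurCert

theorem smul_leechV_iff (g : Co0) : g • pV = pV ↔ g • Spor.leechV = Spor.leechV := by
  rw [pV_eq, co0_neg, neg_inj]

theorem co3_map : Spor.Co3 = co3.map Co0.subtype := by
  ext σ
  rw [Subgroup.mem_map]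
  constructor
  · rintro ⟨h0, h1⟩
    exact ⟨⟨σ, h0⟩, mem_co3.mpr ((smul_leechV_iff ⟨σ, h0⟩).mpr h1), rfl⟩
  · rintro ⟨g, hg, rfl⟩
    exact ⟨g.2, (smul_leechV_iff g).mp (mem_co3.mp hg)⟩

theorem card_sporCo3 : Nat.card Spor.Co3 = 495766656000 := by
  rw [co3_map, Subgroup.card_map_of_injective (Subgroup.subtype_injective Co0), card_co3]

theorem negCo0_not_mem_co3 : negCo0.1 ∉ Spor.Co3 := fun h => by
  have h1 : negCo0 • Spor.leechV = Spor.leechV := h.2
  rw [negCo0_smul] at h1
  have h2 : -Spor.vecV = Spor.vecV := congrArg Subtype.val h1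
  have h3 := congrFun h2 none
  simp [Spor.vecV] at h3

theorem fixConf_le_co3 : ∀ g : Co0, g ∈ fixConf [pV] → g.1 ∈ Spor.Co3 := fun g hg =>
  ⟨g.2, (smul_leechV_iff g).mp (mem_fixConf.mp hg pV (List.mem_singleton.mpr rfl))⟩

theorem co3Prog_ok : Schur.co3Prog.okB ([pV].map fun v => v.1)
    ((Schur.co3Cert2.gens ++ Schur.co3Cert2.gs) ++ (Schur.co3Cert3.gens ++ Schur.co3Cert3.gs) ++
      (Schur.co3Cert5.gens ++ Schur.co3Cert5.gs)) = true := by
  decide +kernel

theorem co3Cert2_ok : Schur.co3Cert2.check matMul matOne = true := by decide +kernel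

theorem co3Cert3_ok : Schur.co3Cert3.check matMul matOne = true := by decide +kernel

theorem co3Cert5_ok : Schur.co3Cert5.check matMul matOne = true := by decide +kernel

theorem co3_multiplier : HasCyclicSchurMultiplier Spor.Co3 1 := by
  have : Finite Spor.Co3 := Nat.finite_of_card_ne_zero (by rw [card_sporCo3]; norm_num)
  refine CentralExt.hasCyclicSchurMultiplier_one_of_not_dvd fun p hp => ?_
  haveI : Fact p.Prime := ⟨hp⟩
  rcases eq_or_ne p 2 with rfl | h2
  · exact not_dvd_of_data Spor.Co3 inf_le_left negCo0_not_mem_co3 2 Schur.co3Cert2 rfl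
      Schur.co3Prog fixConf_le_co3
      (MatProg.okB_of_subset co3Prog_ok fun c hc => by
        simp only [List.mem_append] at hc ⊢; exact Or.inl (Or.inl hc))
      co3Cert2_ok (m := 484147125) card_sporCo3 (by decide +kernel) (by norm_num)
  rcases eq_or_ne p 3 with rfl | h3
  · exact not_dvd_of_data Spor.Co3 inf_le_left negCo0_not_mem_co3 3 Schur.co3Cert3 rfl
      Schur.co3Prog fixConf_le_co3
      (MatProg.okB_of_subset co3Prog_ok fun c hc => by
        simp only [List.mem_append] at hc ⊢; exact Or.inl (Or.inr hc))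
      co3Cert3_ok (m := 226688000) card_sporCo3 (by decide +kernel) (by norm_num)
  rcases eq_or_ne p 5 with rfl | h5
  · exact not_dvd_of_data Spor.Co3 inf_le_left negCo0_not_mem_co3 5 Schur.co3Cert5 rfl
      Schur.co3Prog fixConf_le_co3
      (MatProg.okB_of_subset co3Prog_ok fun c hc => by
        simp only [List.mem_append] at hc ⊢; exact Or.inr hc)
      co3Cert5_ok (m := 3966133248) card_sporCo3 (by decide +kernel) (by norm_num)
  refine not_dvd_schurMult_of_sq_not_dvd p ?_
  rw [card_sporCo3]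
  refine sq_not_dvd_of_cofactor (A := 2 ^ 10 * 3 ^ 7 * 5 ^ 3) (B := 1771) (C := 43) hp
    (by decide +kernel) (fun hd => ?_) (by norm_num) (by norm_num) (by decide +kernel)
  rcases hp.dvd_mul.1 hd with h | h
  · rcases hp.dvd_mul.1 h with h | h
    · exact h2 ((Nat.prime_dvd_prime_iff_eq hp Nat.prime_two).1 (hp.dvd_of_dvd_pow h))
    · exact h3 ((Nat.prime_dvd_prime_iff_eq hp Nat.prime_three).1 (hp.dvd_of_dvd_pow h))
  · exact h5 ((Nat.prime_dvd_prime_iff_eq hp (by norm_num)).1 (hp.dvd_of_dvd_pow h))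

end Cfsg.Agent.Leech
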