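import Cfsg.Agent.Leech.MatProg
import Cfsg.Agent.SchurBound.Main

/-!
Bounds for the `p`-part of the Schur multiplier of a group of lattice automorphisms, from
certificates on matrices modulo 2.
-/

set_option autoImplicit false
set_option maxHeartbeats 400000

namespace Cfsg.Agent.Leech

open Cfsg Cfsg.Agent.Golay Cfsg.Agent.SchurCert Cfsg.Agent.SchurBound

attribute [local irreducible] matEnc matOne matMul colsOf keyOf

variable (K : Subgroup (Equiv.Perm leechLattice))

/-- A checked bound certificate applies to the group. -/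
theorem applies_of_data (hK : K ≤ Co0) (hneg : negCo0.1 ∉ K) (p : ℕ) (hp : p.Prime)
    (B : BCert) (hBp : B.D.P.p = p) (P : MatProg) {conf : List leechLattice}
    (hconf : ∀ g : Co0, g ∈ fixConf conf → g.1 ∈ K)
    (hP : P.okB (conf.map fun v => v.1) (B.D.gens ++ B.D.gs) = true)
    (hB : B.check matMul matOne = true) {N m : ℕ} (hcard : Nat.card K = N)
    (hN : N = p ^ B.D.P.n * m) (hm : ¬ p ∣ m) :
    Applies (sporCode K hK hneg) B p (fun i => sporElem K hK (B.D.gens.getD i matOne))
      (fun i => sporElem K hK (B.D.gs.getD i matOne)) := by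
  have : Finite K := by
    haveI := finite_Co0
    exact Finite.of_injective _ (Subgroup.inclusion_injective hK)
  have hall := exists_of_okB hP
  have hgen : ∀ i < B.D.P.n, (sporCode K hK hneg).enc (sporElem K hK (B.D.gens.getD i matOne)) =
      B.D.gens.getD i matOne := fun i _ =>
    matEnc_sporElem K hK hconf (fun c hc => hall c (List.mem_append_left _ hc)) i
  have hgs : ∀ i, (sporCode K hK hneg).enc (sporElem K hK (B.D.gs.getD i matOne)) =
      B.D.gs.getD i matOne := fun i =>
    matEnc_sporElem K hK hconf (fun c hc => hall c (List.mem_append_right _ hc)) i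
  refine ⟨hp, hBp, hgen, hgs, ?_, hB⟩
  have hchk := hB
  simp only [BCert.check, Bool.and_eq_true] at hchk
  obtain ⟨-, hc⟩ := card_initGroup_of_groupOK (sporCode K hK hneg) B.D (hBp.symm ▸ hp)
    (fun i => sporElem K hK (B.D.gens.getD i matOne)) hgen hchk.1.1.1 hchk.1.1.2
  rw [index_initGroup hcard (hc.trans (by rw [hBp])) hN]
  exact hm

/-- An element of the group with the given code, when the code is certified. -/
theorem exists_code_of_okB (hK : K ≤ Co0) {P : MatProg} {conf : List leechLattice}
    (hconf : ∀ g : Co0, g ∈ fixConf conf → g.1 ∈ K) {need : List ℕ}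
    (hP : P.okB (conf.map fun v => v.1) need = true) :
    ∀ c ∈ need, ∃ g : K, matEnc (Subgroup.inclusion hK g) = c := by
  intro c hc
  obtain ⟨g, hg, e⟩ := exists_of_okB hP c hc
  exact ⟨⟨g.1, hconf g hg⟩, e⟩

end Cfsg.Agent.Leech
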