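import Cfsg.Agent.Leech.SchurHSData
import Cfsg.Agent.Leech.SporBound
import Cfsg.Agent.Leech.OutHS
import Cfsg.Agent.SchurSmall.AltPullbackCount
import Cfsg.Agent.SchurBound.CoresPair

/-!
The Schur multiplier of the Higman-Sims group is cyclic of order two: certificates bound it, and
the action on 100 points pulls back the double cover of the alternating group.
-/

set_option autoImplicit false
set_option maxHeartbeats 400000
set_option Elab.async false

namespace Cfsg.Agent.Leech

open Cfsg Cfsg.Agent.Golay Cfsg.Agent.SchurCert Cfsg.Agent.SchurBound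

theorem sporHS_le : Spor.HS ≤ Co0 := fun _ h => h.1.1

theorem fixConf_le_sporHS : ∀ g : Co0, g ∈ fixConf [pV, pX] → g.1 ∈ Spor.HS := fun g hg =>
  (mem_spor_hs g.2).mpr (fixConf_le_hs hg)

theorem negCo0_not_mem_sporHS : negCo0.1 ∉ Spor.HS := fun h => by
  have h1 : negCo0 • pV = pV := (mem_hs.mp ((mem_spor_hs negCo0.2).mp h)).1
  rw [negCo0_smul] at h1
  have h2 : -(tv 5 1 1) = tv 5 1 1 := congrArg Subtype.val h1
  have h3 := congrFun h2 none
  simp [tv_apply] at h3

theorem card_sporHS : Nat.card Spor.HS = 44352000 := by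
  rw [← Nat.card_congr sporEquiv.toEquiv, card_hs]

theorem commutator_sporHS : commutator Spor.HS = ⊤ := by
  refine commutator_eq_top_of_equiv sporEquiv ?_
  have := isSimpleGroup_hs
  rcases (inferInstance : (commutator hs).Normal).eq_bot_or_eq_top with h | h
  · exfalso
    let cg : CommGroup hs :=
      { (inferInstance : Group hs) with
        mul_comm := fun a b => commutatorElement_eq_one_iff_mul_comm.1 (by
          rw [← Subgroup.mem_bot, ← h, commutator_def]
          exact Subgroup.commutator_mem_commutator (Subgroup.mem_top a) (Subgroup.mem_top b)) }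
    have hp := @IsSimpleGroup.prime_card _ cg this
    rw [card_hs] at hp
    norm_num at hp
  · exact h

/-! ### The bound -/

/-- All codes needed by the certificates. -/
def hsNeed : List ℕ :=
  (Schur.hsCert3.gens ++ Schur.hsCert3.gs) ++ (Schur.hsCert5.gens ++ Schur.hsCert5.gs) ++
    (Schur.hsBound1.D.gens ++ Schur.hsBound1.D.gs) ++ (Schur.hsBound2.D.gens ++ Schur.hsBound2.D.gs)

theorem hsProg_ok : Schur.hsProg.okB ([pV, pX].map fun v => v.1) hsNeed = true := by
  decide +kernel

theorem hsCert3_ok : Schur.hsCert3.check matMul matOne = true := by decide +kernel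

theorem hsCert5_ok : Schur.hsCert5.check matMul matOne = true := by decide +kernel

theorem hsBound1_ok : Schur.hsBound1.check matMul matOne = true := by decide +kernel

theorem hsBound2_ok : Schur.hsBound2.check matMul matOne = true := by decide +kernel

theorem hs_two_part : (Nat.card (CentralExt.schurMult Spor.HS)).factorization 2 ≤ 1 := by
  have : Finite Spor.HS := Nat.finite_of_card_ne_zero (by rw [card_sporHS]; norm_num)
  exact factorization_schurMult_le (sporCode Spor.HS sporHS_le negCo0_not_mem_sporHS)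
    (applies_of_data Spor.HS sporHS_le negCo0_not_mem_sporHS 2 Nat.prime_two Schur.hsBound1 rfl
      Schur.hsProg fixConf_le_sporHS
      (MatProg.okB_of_subset hsProg_ok fun c hc => by
        simp only [hsNeed, List.mem_append] at hc ⊢; exact Or.inl (Or.inr hc))
      hsBound1_ok (m := 86625) card_sporHS (by decide +kernel) (by norm_num))
    (applies_of_data Spor.HS sporHS_le negCo0_not_mem_sporHS 2 Nat.prime_two Schur.hsBound2 rfl
      Schur.hsProg fixConf_le_sporHS
      (MatProg.okB_of_subset hsProg_ok fun c hc => by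
        simp only [hsNeed, List.mem_append] at hc ⊢; exact Or.inr hc)
      hsBound2_ok (m := 86625) card_sporHS (by decide +kernel) (by norm_num))
    Schur.hsKill rfl rfl rfl rfl rfl rfl

theorem card_schurMult_hs_dvd : Nat.card (CentralExt.schurMult Spor.HS) ∣ 2 := by
  have : Finite Spor.HS := Nat.finite_of_card_ne_zero (by rw [card_sporHS]; norm_num)
  have hpos : Nat.card (CentralExt.schurMult Spor.HS) ≠ 0 := Nat.card_pos.ne'
  rw [← Nat.factorization_le_iff_dvd hpos (by norm_num)]
  intro p
  by_cases hp : p.Prime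
  swap
  · simp [Nat.factorization_eq_zero_of_not_prime _ hp]
  rcases eq_or_ne p 2 with rfl | h2
  · refine hs_two_part.trans ?_
    exact (Nat.prime_two.pow_dvd_iff_le_factorization (by norm_num)).1 (by norm_num)
  have : Fact p.Prime := ⟨hp⟩
  refine le_of_eq_of_le (Nat.factorization_eq_zero_of_not_dvd ?_) (Nat.zero_le _)
  rcases eq_or_ne p 3 with rfl | h3
  · exact not_dvd_of_data Spor.HS sporHS_le negCo0_not_mem_sporHS 3 Schur.hsCert3 rfl
      Schur.hsProg fixConf_le_sporHS
      (MatProg.okB_of_subset hsProg_ok fun c hc => by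
        simp only [hsNeed, List.mem_append] at hc ⊢; exact Or.inl (Or.inl (Or.inl hc)))
      hsCert3_ok (m := 4928000) card_sporHS (by decide +kernel) (by norm_num)
  rcases eq_or_ne p 5 with rfl | h5
  · exact not_dvd_of_data Spor.HS sporHS_le negCo0_not_mem_sporHS 5 Schur.hsCert5 rfl
      Schur.hsProg fixConf_le_sporHS
      (MatProg.okB_of_subset hsProg_ok fun c hc => by
        simp only [hsNeed, List.mem_append] at hc ⊢; exact Or.inl (Or.inl (Or.inr hc)))
      hsCert5_ok (m := 354816) card_sporHS (by decide +kernel) (by norm_num)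
  refine not_dvd_schurMult_of_sq_not_dvd p ?_
  rw [card_sporHS]
  refine sq_not_dvd_of_cofactor (A := 2 ^ 9 * 3 ^ 2 * 5 ^ 3) (B := 77) (C := 9) hp
    (by decide +kernel) (fun hd => ?_) (by norm_num) (by norm_num) (by decide +kernel)
  rcases hp.dvd_mul.1 hd with h | h
  · rcases hp.dvd_mul.1 h with h | h
    · exact h2 ((Nat.prime_dvd_prime_iff_eq hp Nat.prime_two).1 (hp.dvd_of_dvd_pow h))
    · exact h3 ((Nat.prime_dvd_prime_iff_eq hp Nat.prime_three).1 (hp.dvd_of_dvd_pow h))
  · exact h5 ((Nat.prime_dvd_prime_iff_eq hp (by norm_num)).1 (hp.dvd_of_dvd_pow h))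

/-! ### The action on 100 points -/

/-- The keys of the 100 vectors. -/
def hsKeys : List ℕ :=
  keyOf pU.1 :: walk (Trees.t100.gens.map Prod.snd) (unpack Trees.t100.toks) [keyOf pU.1]

attribute [local irreducible] keyOf in
/-- The 100 vectors have the listed keys. -/
theorem keyOf_mem_hsKeys {y : leechLattice} (hy : y ∈ set100) : keyOf y.1 ∈ hsKeys := by
  classical
  have hgb := certs100.1
  have hacts : ∀ g ∈ Trees.t100.gens, actsB g.1 g.2 = true := fun g hg' => by
    have := List.all_eq_true.mp hgb g hg'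
    rw [Bool.and_eq_true] at this
    exact this.1
  have hreach : ∀ k ∈ hsKeys, ∃ g ∈ fixConf [pV, pX], keyOf (g • pU).1 = k := by
    intro k hk
    rcases List.mem_cons.mp hk with rfl | hw
    · exact ⟨1, one_mem _, congrArg (fun v : leechLattice => keyOf v.1) (one_smul Co0 pU)⟩
    · refine walk_sound (K := fixConf [pV, pX]) (fun cols hcols => ?_) pU _ _ (fun j hj => ?_) k hw
      · obtain ⟨g, hg, rfl⟩ := List.mem_map.mp hcols
        exact ⟨wordAut g.1, mem_fixConf.mpr (le_stabilizer_of_gensB hgb g hg),
          fun x => keyOf_word (hacts g hg) x⟩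
      · rw [List.mem_singleton] at hj
        subst hj
        exact ⟨1, one_mem _, congrArg (fun v : leechLattice => keyOf v.1) (one_smul Co0 pU)⟩
  have hfin : set100.Finite := Set.finite_of_ncard_pos (by rw [count100]; norm_num)
  have hl : 100 ≤ hsKeys.toFinset.card := by
    have hs := certs100.2.1
    simp only [OrbitCert.sizeB, Bool.and_eq_true, Nat.ble_eq] at hs
    refine hs.2.trans ?_
    rw [← List.toFinset_card_of_nodup (nodup_of_incB hs.1)]
    refine Finset.card_le_card fun z hz => ?_
    rw [List.mem_toFinset] at hz ⊢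
    have hz' := mem_mergeAll 17 _ (show z ∈ mergeAll 17 _ from hz)
    rw [List.mem_flatten] at hz'
    obtain ⟨s, hs', hzs⟩ := hz'
    obtain ⟨k', hk'', rfl⟩ := List.mem_map.mp hs'
    rw [List.mem_singleton] at hzs
    subst hzs
    exact hk''
  have hsub : (hsKeys.toFinset : Set ℕ) ⊆ (fun x : leechLattice => keyOf x.1) '' set100 := by
    intro k hk
    obtain ⟨g, hg, e⟩ := hreach k (List.mem_toFinset.mp hk)
    exact ⟨g • pU, set100_inv (fixConf_le_hs hg) pU_mem100, e⟩
  have heq := Set.eq_of_subset_of_ncard_le hsub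
    (by
      rw [Set.ncard_coe_finset]
      exact (Set.ncard_image_le hfin).trans (count100.trans_le hl))
    (hfin.image _)
  have : keyOf y.1 ∈ (hsKeys.toFinset : Set ℕ) := heq ▸ ⟨y, hy, rfl⟩
  exact List.mem_toFinset.mp this

/-- A code of an element of even order from the certificates. -/
def hsInvRoot : ℕ :=
  0xbeebce5cf7936072c0378c2357202f4d20916de7e10439cd2f36e8374eea42ad0e11d2bb609550529859725b1f72c65d72ca767035457610714a906d4676e47eb42464d0054c2054

/-- The code of an involution without fixed points among the 100. -/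
def hsInv : ℕ := matMul hsInvRoot (matMul hsInvRoot hsInvRoot)

theorem hsInv_checks : (hsNeed.any fun c => Nat.beq c hsInvRoot) = true ∧
    matMul hsInv hsInv = matOne ∧
    (hsKeys.all fun k => !(Nat.beq (xorSel (unpackCols 24 hsInv) k) k)) = true := by
  decide +kernel

theorem hsInv_eq : hsInv = matMul hsInvRoot (matMul hsInvRoot hsInvRoot) := rfl

attribute [local irreducible] matEnc matMul matOne colsOf keyOf hsInv hsInvRoot xorSel unpackCols
  hsKeys hsNeed Schur.hsProg

instance : MulAction hs set100 where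
  smul g x := ⟨g.1 • x.1, set100_inv g.2 x.2⟩
  one_smul x := Subtype.ext (one_smul Co0 x.1)
  mul_smul g h x := Subtype.ext (mul_smul g.1 h.1 x.1)

theorem exists_fpf_involution : ∃ x : hs, x * x = 1 ∧ ∀ y : set100, x • y ≠ y := by
  obtain ⟨hmem, hsq, hmove⟩ := hsInv_checks
  simp only [List.any_eq_true] at hmem
  obtain ⟨c, hc, hbe⟩ := hmem
  rw [Nat.eq_of_beq_eq_true hbe] at hc
  obtain ⟨g, hg, e⟩ := exists_of_okB hsProg_ok _ hc
  let g' : hs := ⟨g, fixConf_le_hs hg⟩
  have hx : matEnc (g' * (g' * g') : hs).1 = hsInv := by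
    show matEnc (g * (g * g)) = _
    rw [matEnc_mul, matEnc_mul, e, hsInv_eq]
  refine ⟨g' * (g' * g'), ?_, fun y hy => ?_⟩
  · have hneg : negCo0 ∉ hs := fun h => negCo0_not_mem_sporHS ((mem_spor_hs negCo0.2).mpr h)
    refine (matCode hs hneg).enc_inj ?_
    show matEnc ((g' * (g' * g') : hs) * (g' * (g' * g')) : hs).1 = matEnc (1 : hs).1
    rw [Subgroup.coe_mul, matEnc_mul, hx, hsq, OneMemClass.coe_one, matEnc_one]
  · have hk := List.all_eq_true.mp hmove _ (keyOf_mem_hsKeys y.2)
    have hfix : (g' * (g' * g') : hs).1 • y.1 = y.1 := congrArg Subtype.val hy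
    have e2 := keyOf_smul_eq (g' * (g' * g') : hs).1 y.1
    rw [hfix, ← unpack_matEnc, hx] at e2
    rw [← e2, Nat.beq_refl] at hk
    exact Bool.noConfusion hk

theorem exists_stem_hs : ∃ (W : Type) (_ : Group W) (_ : Finite W) (σ : W →* Spor.HS),
    IsStemExtension σ ∧ Nat.card σ.ker = 2 := by
  classical
  have : Finite Spor.HS := Nat.finite_of_card_ne_zero (by rw [card_sporHS]; norm_num)
  have : Finite set100 := (Set.finite_of_ncard_pos (by rw [count100]; norm_num)).to_subtype
  let e : set100 ≃ Fin (99 + 1) := Finite.equivFinOfCardEq (by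
    rw [Nat.card_coe_set_eq, count100])
  let ψ : hs →* Equiv.Perm (Fin (99 + 1)) :=
    e.permCongrHom.toMonoidHom.comp (MulAction.toPermHom hs set100)
  obtain ⟨x, hx, hfpf⟩ := exists_fpf_involution
  refine SchurSmall.exists_stem_two_of_support commutator_sporHS (by norm_num)
    (ψ.comp sporEquiv.symm.toMonoidHom) (sporEquiv x) (by rw [← map_mul, hx, map_one]) 12 ?_
  have hsupp : (ψ x).support = Finset.univ := by
    refine Finset.eq_univ_of_forall fun i => Equiv.Perm.mem_support.2 fun hi => ?_
    exact hfpf (e.symm i) (e.injective (by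
      rw [e.apply_symm_apply]
      exact hi))
  show ((ψ.comp sporEquiv.symm.toMonoidHom) (sporEquiv x)).support.card = _
  rw [MonoidHom.comp_apply]
  simp only [MulEquiv.coe_toMonoidHom, MulEquiv.symm_apply_apply]
  rw [hsupp, Finset.card_univ, Fintype.card_fin]

theorem hs_multiplier : HasCyclicSchurMultiplier Spor.HS 2 := by
  have : Finite Spor.HS := Nat.finite_of_card_ne_zero (by rw [card_sporHS]; norm_num)
  obtain ⟨W, _, _, σ, hσ, hc⟩ := exists_stem_hs
  have hcyc : IsCyclic σ.ker := @isCyclic_of_prime_card _ _ 2 ⟨Nat.prime_two⟩ hc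
  exact CentralExt.hasSchurMultiplier_of_stem hσ
    (by rw [hc]; exact Nat.le_of_dvd (by norm_num) card_schurMult_hs_dvd)
    (mulEquivOfCyclicCardEq (by rw [hc, Nat.card_congr Multiplicative.toAdd, Nat.card_zmod]))

end Cfsg.Agent.Leech
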