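import Cfsg.Agent.Leech.SchurMcLBound
import Cfsg.Agent.Leech.SchurMcLCores

/-!
The Schur multiplier of the McLaughlin group is cyclic of order three: certificates bound it, and
a cocycle induced from a subgroup of index 15400 gives the threefold cover.
-/

set_option autoImplicit false
set_option maxHeartbeats 400000
set_option Elab.async false

namespace Cfsg.Agent.Leech

open Cfsg Cfsg.Agent.Golay Cfsg.Agent.SchurCert Cfsg.Agent.SchurBound

/-- All codes of generators of the corestriction. -/
def mclCoresNeed : List ℕ :=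
  Schur.mclCores.gens ++ Schur.mclCores.vgens ++ Schur.mclCores.hgens

theorem mclCoresProg_ok :
    Schur.mclProg.okB ([pV, pU].map fun v => v.1) mclCoresNeed = true := by decide +kernel

theorem mclKey_matEnc {v : leechLattice} (hv : keyOf v.1 = Schur.mclFix) (g : Co0) :
    mclKey (matEnc g) = keyOf (g • v).1 := by
  rw [mclKey, unpack_matEnc, keyOf_smul_eq, hv]

theorem mclCores_card :
    898128000 = Schur.mclCores.m * (Schur.mclCores.nV * Schur.mclCores.nH) := by decide +kernel

theorem mclCores_n : Schur.mclCores.n = 3 := rfl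

attribute [local irreducible] matEnc matMul matOne colsOf keyOf mclKey xorSel unpackCols
  mclCoresNeed Schur.mclProg Schur.mclCores Schur.mclTabX Schur.mclTabY

theorem exists_stem_mcl : ∃ (W : Type) (_ : Group W) (_ : Finite W) (σ : W →* Spor.McL),
    IsStemExtension σ ∧ Nat.card σ.ker = 3 := by
  have : Finite Spor.McL := Nat.finite_of_card_ne_zero (by rw [card_sporMcL]; norm_num)
  have : NeZero Schur.mclCores.n := ⟨by rw [mclCores_n]; norm_num⟩
  obtain ⟨hlt, hfix, hact, hval⟩ := mclCores_small
  obtain ⟨W, _, _, σ, hσ, ⟨e⟩⟩ := exists_stem_of_scert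
    (sporCode Spor.McL sporMcL_le negCo0_not_mem_sporMcL) commutator_sporMcL Schur.mclCores mclKey
    (fun g u hu => by
      obtain ⟨v, hv⟩ : ∃ v : leechLattice, keyOf v.1 = Schur.mclFix :=
        ⟨selVec dualL Schur.mclFix, keyOf_sel hlt⟩
      change mclKey (matEnc (Subgroup.inclusion sporMcL_le u)) = mclKey matOne at hu
      change mclKey (matEnc (Subgroup.inclusion sporMcL_le (g * u))) =
        mclKey (matEnc (Subgroup.inclusion sporMcL_le g))
      rw [← matEnc_one, mclKey_matEnc hv, mclKey_matEnc hv, one_smul] at hu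
      rw [map_mul, mclKey_matEnc hv, mclKey_matEnc hv, mul_smul]
      exact keyOf_smul_congr _ hu)
    (fun c hc => by
      obtain ⟨g, hg⟩ := exists_code_of_okB Spor.McL sporMcL_le fixConf_le_sporMcL mclCoresProg_ok c
        (by rw [mclCoresNeed]; exact hc)
      exact ⟨g, hg⟩)
    (card_sporMcL.trans mclCores_card) Schur.mclTabX Schur.mclTabY
    ⟨mclCores_reps, mclCores_keys, mclCores_v, mclCores_h, hact, mclCores_xi, hfix,
      mclCores_tabx, mclCores_taby, hval⟩
  exact ⟨W, inferInstance, inferInstance, σ, hσ, by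
    rw [Nat.card_congr e.toEquiv, Nat.card_congr Multiplicative.toAdd, Nat.card_zmod, mclCores_n]⟩

theorem mcl_multiplier : HasCyclicSchurMultiplier Spor.McL 3 := by
  have : Finite Spor.McL := Nat.finite_of_card_ne_zero (by rw [card_sporMcL]; norm_num)
  obtain ⟨W, _, _, σ, hσ, hc⟩ := exists_stem_mcl
  have hcyc : IsCyclic σ.ker := @isCyclic_of_prime_card _ _ 3 ⟨Nat.prime_three⟩ hc
  exact CentralExt.hasSchurMultiplier_of_stem hσ
    (by rw [hc]; exact Nat.le_of_dvd (by norm_num) card_schurMult_mcl_dvd)
    (mulEquivOfCyclicCardEq (by rw [hc, Nat.card_congr Multiplicative.toAdd, Nat.card_zmod]))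

end Cfsg.Agent.Leech
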