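import Cfsg.Agent.Leech.SchurMcLData
import Cfsg.Agent.Leech.SporBound
import Cfsg.Agent.Leech.OutMcL
import Cfsg.Agent.Leech.SimpleMcL
import Cfsg.Agent.SchurBound.CoresPair

/-!
The Schur multiplier of the McLaughlin group has order dividing three.
-/

set_option autoImplicit false
set_option maxHeartbeats 400000
set_option Elab.async false

namespace Cfsg.Agent.Leech

open Cfsg Cfsg.Agent.Golay Cfsg.Agent.SchurCert Cfsg.Agent.SchurBound

theorem sporMcL_le : Spor.McL ≤ Co0 := fun _ h => h.1.1

theorem fixConf_le_sporMcL : ∀ g : Co0, g ∈ fixConf [pV, pU] → g.1 ∈ Spor.McL := fun g hg =>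
  (McLOut.mem_spor_mcl g.2).mpr (fixConf_le_mcl hg)

theorem negCo0_not_mem_sporMcL : negCo0.1 ∉ Spor.McL := fun h => by
  have h1 : negCo0 • pV = pV := (mem_mcl.mp ((McLOut.mem_spor_mcl negCo0.2).mp h)).1
  rw [negCo0_smul] at h1
  have h2 : -(tv 5 1 1) = tv 5 1 1 := congrArg Subtype.val h1
  have h3 := congrFun h2 none
  simp [tv_apply] at h3

theorem card_sporMcL : Nat.card Spor.McL = 898128000 := by
  rw [← Nat.card_congr McLOut.sporEquiv.toEquiv, card_mcl]

theorem commutator_sporMcL : commutator Spor.McL = ⊤ := by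
  refine commutator_eq_top_of_equiv McLOut.sporEquiv ?_
  have := isSimpleGroup_mcl
  rcases (inferInstance : (commutator mcl).Normal).eq_bot_or_eq_top with h | h
  · exfalso
    let cg : CommGroup mcl :=
      { (inferInstance : Group mcl) with
        mul_comm := fun a b => commutatorElement_eq_one_iff_mul_comm.1 (by
          rw [← Subgroup.mem_bot, ← h, commutator_def]
          exact Subgroup.commutator_mem_commutator (Subgroup.mem_top a) (Subgroup.mem_top b)) }
    have hp := @IsSimpleGroup.prime_card _ cg this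
    rw [card_mcl] at hp
    norm_num at hp
  · exact h

/-- All codes needed by the certificates. -/
def mclNeed : List ℕ :=
  (Schur.mclCert2.gens ++ Schur.mclCert2.gs) ++ (Schur.mclCert5.gens ++ Schur.mclCert5.gs) ++
    (Schur.mclBound1.D.gens ++ Schur.mclBound1.D.gs) ++
    (Schur.mclBound2.D.gens ++ Schur.mclBound2.D.gs)

theorem mclProg_ok : Schur.mclProg.okB ([pV, pU].map fun v => v.1) mclNeed = true := by
  decide +kernel

theorem mclCert2_ok : Schur.mclCert2.check matMul matOne = true := by decide +kernel

theorem mclCert5_ok : Schur.mclCert5.check matMul matOne = true := by decide +kernel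

theorem mclBound1_ok : Schur.mclBound1.check matMul matOne = true := by decide +kernel

theorem mclBound2_ok : Schur.mclBound2.check matMul matOne = true := by decide +kernel

theorem mcl_three_part : (Nat.card (CentralExt.schurMult Spor.McL)).factorization 3 ≤ 1 := by
  have : Finite Spor.McL := Nat.finite_of_card_ne_zero (by rw [card_sporMcL]; norm_num)
  exact factorization_schurMult_le (sporCode Spor.McL sporMcL_le negCo0_not_mem_sporMcL)
    (applies_of_data Spor.McL sporMcL_le negCo0_not_mem_sporMcL 3 Nat.prime_three Schur.mclBound1 rfl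
      Schur.mclProg fixConf_le_sporMcL
      (MatProg.okB_of_subset mclProg_ok fun c hc => by
        simp only [mclNeed, List.mem_append] at hc ⊢; exact Or.inl (Or.inr hc))
      mclBound1_ok (m := 1232000) card_sporMcL (by decide +kernel) (by norm_num))
    (applies_of_data Spor.McL sporMcL_le negCo0_not_mem_sporMcL 3 Nat.prime_three Schur.mclBound2 rfl
      Schur.mclProg fixConf_le_sporMcL
      (MatProg.okB_of_subset mclProg_ok fun c hc => by
        simp only [mclNeed, List.mem_append] at hc ⊢; exact Or.inr hc)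
      mclBound2_ok (m := 1232000) card_sporMcL (by decide +kernel) (by norm_num))
    Schur.mclKill rfl rfl rfl rfl rfl rfl

theorem card_schurMult_mcl_dvd : Nat.card (CentralExt.schurMult Spor.McL) ∣ 3 := by
  have : Finite Spor.McL := Nat.finite_of_card_ne_zero (by rw [card_sporMcL]; norm_num)
  have hpos : Nat.card (CentralExt.schurMult Spor.McL) ≠ 0 := Nat.card_pos.ne'
  rw [← Nat.factorization_le_iff_dvd hpos (by norm_num)]
  intro p
  by_cases hp : p.Prime
  swap
  · simp [Nat.factorization_eq_zero_of_not_prime _ hp]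
  rcases eq_or_ne p 3 with rfl | h3
  · refine mcl_three_part.trans ?_
    exact (Nat.prime_three.pow_dvd_iff_le_factorization (by norm_num)).1 (by norm_num)
  have : Fact p.Prime := ⟨hp⟩
  refine le_of_eq_of_le (Nat.factorization_eq_zero_of_not_dvd ?_) (Nat.zero_le _)
  rcases eq_or_ne p 2 with rfl | h2
  · exact not_dvd_of_data Spor.McL sporMcL_le negCo0_not_mem_sporMcL 2 Schur.mclCert2 rfl
      Schur.mclProg fixConf_le_sporMcL
      (MatProg.okB_of_subset mclProg_ok fun c hc => by
        simp only [mclNeed, List.mem_append] at hc ⊢; exact Or.inl (Or.inl (Or.inl hc)))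
      mclCert2_ok (m := 7016625) card_sporMcL (by decide +kernel) (by norm_num)
  rcases eq_or_ne p 5 with rfl | h5
  · exact not_dvd_of_data Spor.McL sporMcL_le negCo0_not_mem_sporMcL 5 Schur.mclCert5 rfl
      Schur.mclProg fixConf_le_sporMcL
      (MatProg.okB_of_subset mclProg_ok fun c hc => by
        simp only [mclNeed, List.mem_append] at hc ⊢; exact Or.inl (Or.inl (Or.inr hc)))
      mclCert5_ok (m := 7185024) card_sporMcL (by decide +kernel) (by norm_num)
  refine not_dvd_schurMult_of_sq_not_dvd p ?_
  rw [card_sporMcL]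
  refine sq_not_dvd_of_cofactor (A := 2 ^ 7 * 3 ^ 6 * 5 ^ 3) (B := 77) (C := 9) hp
    (by decide +kernel) (fun hd => ?_) (by norm_num) (by norm_num) (by decide +kernel)
  rcases hp.dvd_mul.1 hd with h | h
  · rcases hp.dvd_mul.1 h with h | h
    · exact h2 ((Nat.prime_dvd_prime_iff_eq hp Nat.prime_two).1 (hp.dvd_of_dvd_pow h))
    · exact h3 ((Nat.prime_dvd_prime_iff_eq hp Nat.prime_three).1 (hp.dvd_of_dvd_pow h))
  · exact h5 ((Nat.prime_dvd_prime_iff_eq hp (by norm_num)).1 (hp.dvd_of_dvd_pow h))

end Cfsg.Agent.Leech
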