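import Cfsg.Agent.Leech.SchurMcLCoresKey

/-!
Checks of the tables for the corestriction in the McLaughlin group, part A.
-/

set_option autoImplicit false
set_option Elab.async false

namespace Cfsg.Agent.Leech

open Cfsg.Agent.SchurBound Cfsg.Agent.Golay

theorem mclCores_small : Schur.mclFix < 2 ^ 24 ∧ Schur.mclCores.fixOK matOne mclKey = true ∧
    Schur.mclCores.actOK matMul matOne = true ∧
      Schur.mclCores.valOK matMul Schur.mclTabX Schur.mclTabY = true := by decide +kernel

theorem mclCores_reps : Schur.mclCores.repsOK matMul matOne = true := by decide +kernel

theorem mclCores_keys : Schur.mclCores.keysOK mclKey = true := by decide +kernel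

end Cfsg.Agent.Leech
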