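import Cfsg.Agent.Leech.SchurMcLCoresKey

/-!
Checks of the tables for the corestriction in the McLaughlin group, part B.
-/

set_option autoImplicit false
set_option Elab.async false

namespace Cfsg.Agent.Leech

open Cfsg.Agent.SchurBound Cfsg.Agent.Golay

theorem mclCores_v : Schur.mclCores.vOK matMul matOne = true := by decide +kernel

theorem mclCores_h : Schur.mclCores.hOK matMul matOne = true := by decide +kernel

theorem mclCores_xi : Schur.mclCores.xiOK = true := by decide +kernel

end Cfsg.Agent.Leech
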