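import Cfsg.Agent.Leech.SchurMcLCoresData
import Cfsg.Agent.Leech.MatCode

/-!
The key of a code of a member of the McLaughlin group for the corestriction tables.
-/

set_option autoImplicit false
set_option Elab.async false

namespace Cfsg.Agent.Leech

open Cfsg.Agent.SchurBound Cfsg.Agent.Golay

/-- The image of the fixed key. -/
def mclKey (c : ℕ) : ℕ := xorSel (unpackCols 24 c) Schur.mclFix

end Cfsg.Agent.Leech
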