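import Cfsg.Agent.Leech.Transitive

/-!
How many lattice vectors have a given shape.
-/

namespace Cfsg.Agent.Leech

open Cfsg

/-- Even vectors of `sqNorm = 4n` whose word has an admissible weight. -/
theorem ncard_even_shell {n : ℕ} (hn : n ≤ 16) (p : ℕ → Prop) [DecidablePred p] :
    {x : GolayPt → ℤ | x ∈ leechLattice ∧ sqNorm x = 4 * (n : ℤ) ∧ (∀ i, x i % 2 = 0) ∧
        p (hammingNorm (word x 0))}.ncard =
      ∑ c ∈ codeFinset, if p (hammingNorm c) then goodCount (hammingNorm c) n else 0 := by
  set E : Finset (GolayPt → ℤ) :=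
    ((codeFinset.filter fun c => p (hammingNorm c)).biUnion fun c => good c n).image
      fun y i => 2 * y i with hE
  have hset : {x : GolayPt → ℤ | x ∈ leechLattice ∧ sqNorm x = 4 * (n : ℤ) ∧
      (∀ i, x i % 2 = 0) ∧ p (hammingNorm (word x 0))} = ↑E := by
    ext x
    simp only [Set.mem_ofPred_eq, Finset.mem_coe, hE, Finset.mem_image, Finset.mem_biUnion,
      Finset.mem_filter, mem_codeFinset]
    constructor
    · rintro ⟨hx, hN, he, hp⟩
      obtain ⟨m, hm, hpar, hs, hw⟩ := exists_parity01 hx
      have hm0 : m = 0 := by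
        have := hpar none; have := he none
        simp only [Int.ModEq] at *
        rcases hm with rfl | rfl <;> omega
      subst hm0
      obtain ⟨y, hy, hwy⟩ := exists_half hpar
      refine ⟨y, ⟨word x 0, ⟨hw, hp⟩, (mem_good_iff hn).mpr ⟨hwy.symm, ?_, ?_⟩⟩, ?_⟩
      · simp only [Int.ModEq, hy, zero_add, ← Finset.mul_sum] at hs
        omega
      · have : sqNorm x = 4 * ∑ i, y i ^ 2 := by
          simp only [sqNorm, hy, Finset.mul_sum]
          exact Finset.sum_congr rfl fun i _ => by ring
        rw [this, ← sum_natAbs_sq] at hN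
        omega
      · funext i; simp [hy i]
    · rintro ⟨y, ⟨c, ⟨hc, hp⟩, hy⟩, rfl⟩
      obtain ⟨hy1, hy2, hy3⟩ := (mem_good_iff hn).mp hy
      have hword : word (fun i => 2 * y i) 0 = c := by
        rw [← hy1]; funext i; simp [word]
      refine ⟨(mem_leechLattice_iff _).mpr ⟨0, fun i => ?_, ?_, ?_⟩, ?_, fun i => ?_, ?_⟩
      · simp [Int.ModEq]
      · simp only [Int.ModEq, ← Finset.mul_sum]
        omega
      · rwa [hword]
      · have : sqNorm (fun i => 2 * y i) = 4 * ∑ i, y i ^ 2 := by
          simp only [sqNorm, Finset.mul_sum]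
          exact Finset.sum_congr rfl fun i _ => by ring
        rw [this, ← sum_natAbs_sq, hy3]
      · show 2 * y i % 2 = 0
        omega
      · rwa [hword]
  rw [hset, Set.ncard_coe_finset, hE, Finset.card_image_of_injective _ (fun y z h => funext fun i => by
      have h1 : 2 * y i = 2 * z i := congrFun h i; omega), Finset.card_biUnion, Finset.sum_filter]
  · refine Finset.sum_congr rfl fun c hc => ?_
    rw [card_good (four_dvd c (mem_codeFinset.mp hc)) hn]
  · intro c _ d _ hcd
    rw [Function.onFun, Finset.disjoint_left]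
    intro y hy hy'
    exact hcd (((mem_good_iff hn).mp hy).1.symm.trans ((mem_good_iff hn).mp hy').1)

/-- Odd vectors of `sqNorm = 4n` whose vector of half magnitudes has a given property. -/
theorem ncard_odd_shell {n : ℕ} (hn6 : 6 ≤ n) (hn : n ≤ 16) (hn4 : 4 ∣ n)
    (q : (GolayPt → ℕ) → Prop) [DecidablePred q] :
    {x : GolayPt → ℤ | x ∈ leechLattice ∧ sqNorm x = 4 * (n : ℤ) ∧ IsOdd x ∧
        q fun i => (x i).natAbs / 2}.ncard = 4096 * ((B (n - 6)).filter q).card := by
  have hset : {x : GolayPt → ℤ | x ∈ leechLattice ∧ sqNorm x = 4 * (n : ℤ) ∧ IsOdd x ∧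
      q fun i => (x i).natAbs / 2} =
      ↑((codeFinset ×ˢ (B (n - 6)).filter q).image fun z => enc z.1 z.2) := by
    ext x
    simp only [Set.mem_ofPred_eq, Finset.mem_coe, Finset.mem_image, Finset.mem_product,
      Finset.mem_filter, mem_codeFinset, Prod.exists]
    constructor
    · rintro ⟨hx, hN, ho, hq⟩
      obtain ⟨m, hm, hpar, -, hw⟩ := exists_parity01 hx
      have hm1 : m = 1 := by
        have := hpar none; have := ho none
        simp only [Int.ModEq] at *
        rcases hm with rfl | rfl <;> omega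
      subst hm1
      set b : GolayPt → ℕ := fun i => (x i).natAbs / 2 with hb
      have henc : enc (word x 1) b = x := by
        funext i
        have hi := hpar i
        simp only [Int.ModEq] at hi
        simp only [enc, hb, word]
        split_ifs with hc <;>
          rw [← Int.cast_natCast (R := ZMod 2), ZMod.intCast_eq_intCast_iff_dvd_sub] at hc <;>
          omega
      refine ⟨word x 1, b, ⟨hw, (mem_B_iff (by omega)).mpr ?_, hq⟩, henc⟩
      rw [← henc, sqNorm_enc] at hN
      omega
    · rintro ⟨c, b, ⟨hc, hb, hq⟩, rfl⟩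
      rw [mem_B_iff (by omega)] at hb
      have hN : sqNorm (enc c b) = 4 * (n : ℤ) := by
        rw [sqNorm_enc, hb]; omega
      have hb' : (fun i => (enc c b i).natAbs / 2) = b := by
        funext i; rw [natAbs_enc]; omega
      refine ⟨(mem_leechLattice_iff _).mpr ⟨1, enc_odd c b, ?_, ?_⟩, hN, fun i => ?_, ?_⟩
      · refine odd_sum_modEq (enc_odd c b) ?_ ?_
        · rw [word_enc]; exact four_dvd c hc
        · rw [hN]; omega
      · rwa [word_enc]
      · have := enc_odd c b i
        simp only [Int.ModEq] at this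
        omega
      · rwa [hb']
  rw [hset, Set.ncard_coe_finset, Finset.card_image_of_injective, Finset.card_product,
    card_codeFinset]
  rintro ⟨c, b⟩ ⟨c', b'⟩ h
  simp only at h
  refine Prod.ext ?_ (funext fun i => ?_)
  · show c = c'
    rw [← word_enc c b, ← word_enc c' b', h]
  · have := natAbs_enc c b i
    rw [h, natAbs_enc] at this
    show b i = b' i
    omega

theorem hammingNorm_word_zero {x : GolayPt → ℤ} (he : ∀ p, x p % 2 = 0) (hN : sqNorm x ≤ 64) :
    hammingNorm (word x 0) = absCount x 2 + absCount x 6 := by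
  have hd : Disjoint (absSet x 2) (absSet x 6) := by
    rw [Finset.disjoint_left]
    intro p h h'
    rw [mem_absSet] at h h'
    omega
  rw [Golay.hammingNorm_eq_card_support₂, absCount, absCount, ← Finset.card_union_of_disjoint hd]
  congr 1
  ext p
  have := natAbs_le_eight hN p
  have := he p
  simp only [support₂, word, Finset.mem_filter, Finset.mem_univ, true_and,
    intCast_zmod2_ne_zero_iff, Finset.mem_union, mem_absSet]
  omega

theorem card_six_five_of (S : Finset (GolayPt → ℕ))
    (hS : ∀ b, b ∈ S ↔ ∑ i, (b i ^ 2 + b i) = 6) (hc : S.card = 2048) :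
    (S.filter fun b => ∃ i, b i = 2).card = 24 ∧
      (S.filter fun b => ¬ ∃ i, b i = 2).card = 2024 := by
  have h1 : (S.filter fun b => ∃ i, b i = 2).card = 24 := by
    have e : S.filter (fun b => ∃ i, b i = 2) =
        (Finset.univ : Finset GolayPt).image fun p => Pi.single p 2 := by
      ext b
      simp only [Finset.mem_filter, Finset.mem_image, Finset.mem_univ, true_and, hS]
      constructor
      · rintro ⟨hs, i, hi⟩
        refine ⟨i, funext fun j => ?_⟩
        by_cases hj : j = i
        · subst hj; simp [hi]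
        · rw [Pi.single_eq_of_ne hj]
          have h2 : ∑ k ∈ ({i, j} : Finset GolayPt), (b k ^ 2 + b k) ≤ ∑ k, (b k ^ 2 + b k) :=
            Finset.sum_le_sum_of_subset (Finset.subset_univ _)
          rw [Finset.sum_pair (Ne.symm hj), hi, hs] at h2
          omega
      · rintro ⟨p, rfl⟩
        refine ⟨?_, p, by simp⟩
        rw [Finset.sum_eq_single p (fun q _ hq => by simp [hq]) (by simp)]
        simp
    rw [e, Finset.card_image_of_injective, Finset.card_univ, card_golayPt]
    intro p q h
    by_contra hne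
    have := congrFun h p
    simp only at this
    rw [Pi.single_eq_same, Pi.single_eq_of_ne hne] at this
    omega
  refine ⟨h1, ?_⟩
  have h := Finset.card_filter_add_card_filter_not (s := S) (fun b => ∃ i, b i = 2)
  rw [hc, h1] at h
  omega

theorem card_B_six_five :
    ((B 6).filter fun b => ∃ i, b i = 2).card = 24 ∧
      ((B 6).filter fun b => ¬ ∃ i, b i = 2).card = 2024 :=
  card_six_five_of (B 6) (fun _ => mem_B_iff (show 6 ≤ 11 by norm_num))
    ((card_B (show 6 ≤ 11 by norm_num)).trans (by decide +kernel))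

/-- The four shapes of squared length 48, counted. -/
theorem ncard_shapes48 :
    {x : GolayPt → ℤ | x ∈ leechLattice ∧ sqNorm x = 48 ∧
      ∀ i, x i = 0 ∨ x i = 2 ∨ x i = -2}.ncard = 5275648 ∧
    {x : GolayPt → ℤ | x ∈ leechLattice ∧ sqNorm x = 48 ∧ ∃ i j k, i ≠ j ∧ j ≠ k ∧ i ≠ k ∧
      |x i| = 3 ∧ |x j| = 3 ∧ |x k| = 3}.ncard = 8290304 ∧
    {x : GolayPt → ℤ | x ∈ leechLattice ∧ sqNorm x = 48 ∧ ∃ i, |x i| = 4}.ncard = 3108864 ∧
    {x : GolayPt → ℤ | x ∈ leechLattice ∧ sqNorm x = 48 ∧ ∃ i, |x i| = 5}.ncard = 98304 := by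
  have e48 : (48 : ℤ) = 4 * ((12 : ℕ) : ℤ) := by norm_num
  have heven : ∀ w : ℕ, {x : GolayPt → ℤ | x ∈ leechLattice ∧ sqNorm x = 4 * ((12 : ℕ) : ℤ) ∧
      (∀ i, x i % 2 = 0) ∧ hammingNorm (word x 0) = w}.ncard =
      (if 0 = w then goodCount 0 12 else 0) + 759 * (if 8 = w then goodCount 8 12 else 0) +
      2576 * (if 12 = w then goodCount 12 12 else 0) + 759 * (if 16 = w then goodCount 16 12 else 0)
      + (if 24 = w then goodCount 24 12 else 0) := fun w =>
    (ncard_even_shell (show 12 ≤ 16 by norm_num) (· = w)).trans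
      (weight_dist fun m => if m = w then goodCount m 12 else 0)
  refine ⟨?_, ?_, ?_, ?_⟩
  · have h := heven 12
    rw [show (if (0 : ℕ) = 12 then goodCount 0 12 else 0) + 759 * (if (8 : ℕ) = 12 then goodCount 8 12 else 0) +
      2576 * (if (12 : ℕ) = 12 then goodCount 12 12 else 0) + 759 * (if (16 : ℕ) = 12 then goodCount 16 12 else 0)
      + (if (24 : ℕ) = 12 then goodCount 24 12 else 0) = 5275648 from by decide +kernel] at h
    refine Eq.trans ?_ h
    congr 1
    ext x
    simp only [Set.mem_ofPred_eq, ← e48]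
    constructor
    · rintro ⟨hx, hN, hv⟩
      have he : ∀ i, x i % 2 = 0 := fun i => by rcases hv i with e | e | e <;> rw [e] <;> decide
      refine ⟨hx, hN, he, ?_⟩
      rw [hammingNorm_word_zero he (by omega)]
      rcases shape48 hx hN with ⟨-, -, e4, -⟩ | ⟨-, e, e0⟩ | ⟨ho, -⟩ | ⟨ho, -⟩
      · rw [absCount_eq_zero fun p => by rcases hv p with e | e | e <;> simp [e]] at e4
        omega
      · rw [absCount_eq_zero (v := 6) fun p => by rcases hv p with e | e | e <;> simp [e], e]
      · have := ho none; have := he none; omega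
      · have := ho none; have := he none; omega
    · rintro ⟨hx, hN, he, hw⟩
      refine ⟨hx, hN, fun i => ?_⟩
      rw [hammingNorm_word_zero he (by omega)] at hw
      rcases shape48 hx hN with ⟨-, e2, e4, e0⟩ | ⟨-, e, e0⟩ | ⟨ho, -⟩ | ⟨ho, -⟩
      · rw [absCount_eq_zero (x := x) (v := 6) fun p => by
          have := abs_three (x := x) (a := 0) (b := 2) (c := 4) (by norm_num) (by norm_num)
            (by norm_num) (by omega) p
          omega, e2] at hw
        omega
      · have := abs_two (x := x) (a := 0) (b := 2) (by norm_num) (by omega) i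
        omega
      · have := ho none; have := he none; omega
      · have := ho none; have := he none; omega
  · have h := ncard_odd_shell (n := 12) (by norm_num) (by norm_num) (by norm_num)
      (fun b => ¬ ∃ i, b i = 2)
    rw [show (12 : ℕ) - 6 = 6 from rfl, card_B_six_five.2] at h
    refine Eq.trans ?_ h
    congr 1
    ext x
    simp only [Set.mem_ofPred_eq, ← e48]
    constructor
    · rintro ⟨hx, hN, i, j, k, hij, hjk, hik, h1, h2, h3⟩
      have ho : IsOdd x := by
        rcases parity_cases hx with ho | he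
        · exact ho
        · have := he i; rw [Int.abs_eq_natAbs] at h1; omega
      refine ⟨hx, hN, ho, ?_⟩
      rintro ⟨l, hl⟩
      have h5 : (x l).natAbs = 5 ∨ (x l).natAbs = 4 := by omega
      rcases shape48 hx hN with ⟨he, -⟩ | ⟨he, -⟩ | ⟨-, e5, e1⟩ | ⟨-, e3, e1⟩
      · have := he none; have := ho none; omega
      · have := he none; have := ho none; omega
      · rw [Int.abs_eq_natAbs] at h1
        have := abs_two (x := x) (a := 5) (b := 1) (by norm_num) (by omega) i
        omega
      · have := abs_two (x := x) (a := 3) (b := 1) (by norm_num) (by omega) l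
        omega
    · rintro ⟨hx, hN, ho, hq⟩
      refine ⟨hx, hN, ?_⟩
      rcases shape48 hx hN with ⟨he, -⟩ | ⟨he, -⟩ | ⟨-, e5, e1⟩ | ⟨-, e3, e1⟩
      · have := he none; have := ho none; omega
      · have := he none; have := ho none; omega
      · obtain ⟨a, ha⟩ := Finset.card_eq_one.mp e5
        have h5 : (x a).natAbs = 5 := mem_absSet.mp (by rw [ha]; exact Finset.mem_singleton_self a)
        exact absurd ⟨a, by rw [h5]⟩ hq
      · obtain ⟨a, b, c, hab, hac, hbc, hT⟩ := Finset.card_eq_three.mp e3
        have h3 : ∀ p ∈ ({a, b, c} : Finset GolayPt), |x p| = 3 := fun p hp => by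
          rw [← hT, mem_absSet] at hp
          rw [Int.abs_eq_natAbs]; omega
        exact ⟨a, b, c, hab, hbc, hac, h3 a (by simp), h3 b (by simp), h3 c (by simp)⟩
  · have h := heven 8
    rw [show (if (0 : ℕ) = 8 then goodCount 0 12 else 0) + 759 * (if (8 : ℕ) = 8 then goodCount 8 12 else 0) +
      2576 * (if (12 : ℕ) = 8 then goodCount 12 12 else 0) + 759 * (if (16 : ℕ) = 8 then goodCount 16 12 else 0)
      + (if (24 : ℕ) = 8 then goodCount 24 12 else 0) = 3108864 from by decide +kernel] at h
    refine Eq.trans ?_ h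
    congr 1
    ext x
    simp only [Set.mem_ofPred_eq, ← e48]
    constructor
    · rintro ⟨hx, hN, i, hi⟩
      rw [Int.abs_eq_natAbs] at hi
      have hpos : 0 < absCount x 4 := Finset.card_pos.mpr ⟨i, mem_absSet.mpr (by omega)⟩
      rcases shape48 hx hN with ⟨he, e2, e4, e0⟩ | ⟨-, e, e0⟩ | ⟨ho, -⟩ | ⟨ho, -⟩
      · refine ⟨hx, hN, he, ?_⟩
        rw [hammingNorm_word_zero he (by omega),
          absCount_eq_zero (v := 6) fun p => by have := abs_three (x := x) (a := 0) (b := 2) (c := 4) (by norm_num) (by norm_num) (by norm_num) (by omega) p; omega, e2]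
      · have := abs_two (x := x) (a := 0) (b := 2) (by norm_num) (by omega) i
        omega
      · have := ho i; omega
      · have := ho i; omega
    · rintro ⟨hx, hN, he, hw⟩
      refine ⟨hx, hN, ?_⟩
      rw [hammingNorm_word_zero he (by omega)] at hw
      rcases shape48 hx hN with ⟨-, -, e4, -⟩ | ⟨-, e, -⟩ | ⟨ho, -⟩ | ⟨ho, -⟩
      · obtain ⟨a, ha⟩ := Finset.card_eq_one.mp e4
        exact ⟨a, by
          have h4 : (x a).natAbs = 4 := mem_absSet.mp (by rw [ha]; exact Finset.mem_singleton_self a)
          rw [Int.abs_eq_natAbs, h4]; rfl⟩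
      · omega
      · have := ho none; have := he none; omega
      · have := ho none; have := he none; omega
  · have h := ncard_odd_shell (n := 12) (by norm_num) (by norm_num) (by norm_num)
      (fun b => ∃ i, b i = 2)
    rw [show (12 : ℕ) - 6 = 6 from rfl, card_B_six_five.1] at h
    refine Eq.trans ?_ h
    congr 1
    ext x
    simp only [Set.mem_ofPred_eq, ← e48]
    constructor
    · rintro ⟨hx, hN, i, hi⟩
      rw [Int.abs_eq_natAbs] at hi
      have ho : IsOdd x := by
        rcases parity_cases hx with ho | he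
        · exact ho
        · have := he i; omega
      exact ⟨hx, hN, ho, i, by omega⟩
    · rintro ⟨hx, hN, ho, i, hi⟩
      refine ⟨hx, hN, i, ?_⟩
      rw [Int.abs_eq_natAbs]
      have := ho i
      omega
end Cfsg.Agent.Leech
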