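import Cfsg.Agent.Leech.Orbit11178
import Cfsg.Agent.Leech.Suborbit
import Cfsg.Agent.Leech.SubTreesData

/-!
The suborbits of the third Conway group on 11178 points.
-/

set_option autoImplicit false
set_option Elab.async false

namespace Cfsg.Agent.Leech

open Cfsg


theorem roots11178 : inLeechB (ofList Trees.co3B352Root) = true ∧
    inLeechB (ofList Trees.co3B1100Root) = true ∧ inLeechB (ofList Trees.co3B4125Root) = true ∧
    inLeechB (ofList Trees.co3B5600Root) = true := by
  decide +kernel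

/-- Roots of the four nontrivial suborbits. -/
def sub11178 : Fin 4 → leechLattice
  | 0 => ⟨_, mem_of_inLeechB roots11178.1⟩
  | 1 => ⟨_, mem_of_inLeechB roots11178.2.1⟩
  | 2 => ⟨_, mem_of_inLeechB roots11178.2.2.1⟩
  | 3 => ⟨_, mem_of_inLeechB roots11178.2.2.2⟩

/-- Their inner products with the base point. -/
def dot11178 : Fin 4 → ℤ
  | 0 => -8
  | 1 => 16
  | 2 => 0
  | 3 => 8

/-- Their lengths. -/
def len11178 : Fin 4 → ℕ
  | 0 => 352
  | 1 => 1100
  | 2 => 4125
  | 3 => 5600

/-- Their certificates. -/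
def cert11178sub : Fin 4 → OrbitCert
  | 0 => Trees.co3B352
  | 1 => Trees.co3B1100
  | 2 => Trees.co3B4125
  | 3 => Trees.co3B5600

theorem sub11178_spec : ∀ i, sqNorm (sub11178 i).1 = 32 ∧ dotInt pV.1 (sub11178 i).1 = -16 ∧
    dotInt pX.1 (sub11178 i).1 = dot11178 i := by
  decide +kernel

theorem gens11178 : ∀ i, (cert11178sub i).gensB (([pV] ++ [pX]).map fun v => v.1) = true := by
  decide +kernel

theorem size11178_0 : Trees.co3B352.sizeB (keyOf (sub11178 0).1) 352 = true := by decide +kernel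

theorem size11178_1 : Trees.co3B1100.sizeB (keyOf (sub11178 1).1) 1100 = true := by decide +kernel

theorem size11178_2 : Trees.co3B4125.sizeB (keyOf (sub11178 2).1) 4125 = true := by decide +kernel

theorem size11178_3 : Trees.co3B5600.sizeB (keyOf (sub11178 3).1) 5600 = true := by decide +kernel

theorem size11178 : ∀ i, (cert11178sub i).sizeB (keyOf (sub11178 i).1) (len11178 i) = true
  | 0 => size11178_0
  | 1 => size11178_1
  | 2 => size11178_2
  | 3 => size11178_3

theorem suborbits11178 : (∀ i, (dotClass (set11178 pV) pX (dot11178 i)).ncard = len11178 i ∧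
    ∀ y ∈ dotClass (set11178 pV) pX (dot11178 i),
      ∃ g ∈ fixConf ([pV] ++ [pX]), g • sub11178 i = y) ∧
    ∀ y ∈ set11178 pV, y = pX ∨ ∃ i, dotInt pX.1 y.1 = dot11178 i :=
  suborbits_of_certs (ι := Fin 4) (S := set11178 pV) ⟨sqNorm_configs.2.2.2.1, dot_configs.2.1⟩
    sqNorm_configs.2.2.2.1
    (fun g hg y hy => by
      refine ⟨(sqNorm_co0 g y).trans hy.1, ?_⟩
      have h := co0_dotInt g pV y
      rw [mem_fixConf.mp hg pV (by simp)] at h
      rw [h]; exact hy.2)
    cert11178sub sub11178 dot11178 len11178 (by decide) (by decide)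
    (fun i => ⟨⟨(sub11178_spec i).1, (sub11178_spec i).2.1⟩, (sub11178_spec i).2.2⟩)
    (by rw [count11178]; rfl) gens11178 size11178

/-- The orbit of the moved root is the class. -/
theorem orbit11178 {u x : leechLattice} {g : Co0} (hu : g • u = pV) (hx : g • x = pX) (i : Fin 4) :
    MulAction.orbit ↥(MulAction.stabilizer Co0 u ⊓ MulAction.stabilizer Co0 x)
      (g⁻¹ • sub11178 i) = {y | g • y ∈ dotClass (set11178 pV) pX (dot11178 i)} := by
  ext y
  constructor
  · rintro ⟨⟨k, hk⟩, rfl⟩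
    simp only [Subgroup.mem_inf, MulAction.mem_stabilizer_iff] at hk
    obtain ⟨h1, h2⟩ := hk
    show g • k • g⁻¹ • sub11178 i ∈ dotClass (set11178 pV) pX (dot11178 i)
    refine ⟨⟨?_, ?_⟩, ?_⟩
    · rw [sqNorm_co0, sqNorm_co0, sqNorm_co0]; exact (sub11178_spec i).1
    · have h := co0_dotInt k u (g⁻¹ • sub11178 i)
      rw [h1] at h
      rw [← hu, co0_dotInt, h, ← co0_dotInt g, smul_inv_smul, hu]
      exact (sub11178_spec i).2.1
    · have h := co0_dotInt k x (g⁻¹ • sub11178 i)
      rw [h2] at h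
      rw [← hx, co0_dotInt, h, ← co0_dotInt g, smul_inv_smul, hx]
      exact (sub11178_spec i).2.2
  · intro hy
    obtain ⟨a, ha, e⟩ := (suborbits11178.1 i).2 _ hy
    have haV := mem_fixConf.mp ha pV (by simp)
    have haX := mem_fixConf.mp ha pX (by simp)
    refine ⟨⟨g⁻¹ * a * g, ?_⟩, ?_⟩
    · simp only [Subgroup.mem_inf, MulAction.mem_stabilizer_iff, mul_smul, inv_smul_eq_iff]
      exact ⟨by rw [hu]; exact haV, by rw [hx]; exact haX⟩
    · show (g⁻¹ * a * g) • g⁻¹ • sub11178 i = y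
      rw [mul_smul, mul_smul, smul_inv_smul, e, inv_smul_smul]

theorem ncard_orbit11178 {u x : leechLattice} {g : Co0} (hu : g • u = pV) (hx : g • x = pX)
    (i : Fin 4) :
    (MulAction.orbit ↥(MulAction.stabilizer Co0 u ⊓ MulAction.stabilizer Co0 x)
      (g⁻¹ • sub11178 i)).ncard = len11178 i := by
  rw [orbit11178 hu hx i, ncard_smul_setOf g fun y => y ∈ dotClass (set11178 pV) pX (dot11178 i)]
  exact (suborbits11178.1 i).1

theorem mem_root11178 {u : leechLattice} {g : Co0} (hu : g • u = pV) (i : Fin 4) :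
    g⁻¹ • sub11178 i ∈ set11178 u := by
  refine ⟨(sqNorm_co0 _ _).trans (sub11178_spec i).1, ?_⟩
  rw [← co0_dotInt g, smul_inv_smul, hu]
  exact (sub11178_spec i).2.1

theorem cover11178 {u x : leechLattice} {g : Co0} (hu : g • u = pV) (hx : g • x = pX) :
    set11178 u = {x} ∪
      MulAction.orbit ↥(MulAction.stabilizer Co0 u ⊓ MulAction.stabilizer Co0 x) (g⁻¹ • sub11178 0) ∪
      MulAction.orbit ↥(MulAction.stabilizer Co0 u ⊓ MulAction.stabilizer Co0 x) (g⁻¹ • sub11178 1) ∪
      MulAction.orbit ↥(MulAction.stabilizer Co0 u ⊓ MulAction.stabilizer Co0 x) (g⁻¹ • sub11178 2) ∪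
      MulAction.orbit ↥(MulAction.stabilizer Co0 u ⊓ MulAction.stabilizer Co0 x) (g⁻¹ • sub11178 3) := by
  simp only [orbit11178 hu hx]
  ext y
  have hiff : g • y ∈ set11178 pV ↔ y ∈ set11178 u := by
    simp only [set11178, Set.mem_ofPred_eq, sqNorm_co0, ← hu, co0_dotInt]
  simp only [Set.mem_union, Set.mem_singleton_iff, Set.mem_ofPred_eq]
  constructor
  · intro hy
    rcases suborbits11178.2 _ (hiff.mpr hy) with e | ⟨i, hi⟩
    · exact Or.inl (Or.inl (Or.inl (Or.inl (MulAction.injective g (e.trans hx.symm)))))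
    · have hm : g • y ∈ dotClass (set11178 pV) pX (dot11178 i) := ⟨hiff.mpr hy, hi⟩
      fin_cases i
      · exact Or.inl (Or.inl (Or.inl (Or.inr hm)))
      · exact Or.inl (Or.inl (Or.inr hm))
      · exact Or.inl (Or.inr hm)
      · exact Or.inr hm
  · rintro ((((rfl | h) | h) | h) | h)
    · rw [← hiff, hx]
      exact ⟨sqNorm_configs.2.2.2.1, dot_configs.2.1⟩
    all_goals exact hiff.mp h.1

end Cfsg.Agent.Leech
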